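import Cfsg.Agent.H19.OrthTensor.Vectors
import Mathlib.LinearAlgebra.Matrix.Charpoly.Coeff

/-!
A self-adjoint operator commuting with all its conjugates under `Ω` is a scalar.
-/

set_option autoImplicit false
set_option linter.unusedSectionVars false

namespace Cfsg.Agent.H19.OrthTensor

open QuadraticMap hiding sq
open Cfsg.Agent.H5 Module

variable {F A : Type*} [Field F] [Finite F] [AddCommGroup A] [Module F A] [Finite A]
  [FiniteDimensional F A] {QA : QuadraticForm F A}

/-- Conjugation of operators. -/
def cj (g : orth QA) : Module.End F (Module.End F A) :=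
  (((g : A ≃ₗ[F] A).conj : Module.End F A ≃ₗ[F] Module.End F A) : Module.End F A →ₗ[F] Module.End F A)

theorem cj_apply (g : orth QA) (X : Module.End F A) (x : A) :
    cj g X ((g : A ≃ₗ[F] A) x) = (g : A ≃ₗ[F] A) (X x) := by
  change (g : A ≃ₗ[F] A) (X ((g : A ≃ₗ[F] A).symm ((g : A ≃ₗ[F] A) x))) = _
  rw [LinearEquiv.symm_apply_apply]

theorem cj_one_apply (g : orth QA) : cj g 1 = (1 : Module.End F A) :=
  LinearMap.ext fun x => (g : A ≃ₗ[F] A).apply_symm_apply x

theorem cj_mul (g h : orth QA) : cj (g * h) = cj g * cj h :=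
  LinearMap.ext fun _ => LinearMap.ext fun _ => rfl

theorem cj_id : cj (1 : orth QA) = 1 := LinearMap.ext fun _ => LinearMap.ext fun _ => rfl

theorem cj_mul_apply (g : orth QA) (X Y : Module.End F A) : cj g (X * Y) = cj g X * cj g Y :=
  LinearMap.ext fun x => by
    obtain ⟨y, rfl⟩ := (g : A ≃ₗ[F] A).surjective x
    rw [Module.End.mul_apply, cj_apply, cj_apply, cj_apply, Module.End.mul_apply]

theorem cj_symm {g : orth QA} {X : Module.End F A}
    (h : ∀ x y, polar QA (X x) y = polar QA x (X y)) (x y : A) :
    polar QA (cj g X x) y = polar QA x (cj g X y) := by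
  obtain ⟨x, rfl⟩ := (g : A ≃ₗ[F] A).surjective x
  obtain ⟨y, rfl⟩ := (g : A ≃ₗ[F] A).surjective y
  rw [cj_apply, cj_apply, orth_polar, orth_polar, h]

/-- Iterating a nilpotent map until the next step lands in a given subspace. -/
theorem exists_last_iterate {W : Type*} [AddCommGroup W] [Module F W] (D : Module.End F W) {N : ℕ}
    (hN : D ^ N = 0) (S : Submodule F W) {X : W} (hX : X ∉ S) :
    ∃ n, (D ^ n) X ∉ S ∧ D ((D ^ n) X) ∈ S := by
  classical
  have hex : ∃ n, (D ^ n) X ∈ S := ⟨N, by rw [hN]; exact S.zero_mem⟩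
  obtain ⟨n, hn⟩ : ∃ n, Nat.find hex = n + 1 := by
    refine ⟨Nat.find hex - 1, (Nat.succ_pred_eq_of_pos (Nat.pos_of_ne_zero fun h0 => hX ?_)).symm⟩
    have := Nat.find_spec hex
    rwa [h0, pow_zero, Module.End.one_apply] at this
  refine ⟨n, Nat.find_min hex (by omega), ?_⟩
  have := Nat.find_spec hex
  rwa [hn, pow_succ', Module.End.mul_apply] at this

/-- A self-adjoint operator fixed modulo scalars by a root group is a scalar plus a multiple of the
rank one operator of the singular vector. -/
theorem fixed_form (h2 : (2 : F) ≠ 0) (hQ : (polarBilin QA).Nondegenerate)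
    (hA : 3 ≤ finrank F A) (hq : finrank F A = 3 → Nat.card F ≠ 3) {p f : A} (hp : HypPair QA p f)
    (Y : Module.End F A) (hYs : ∀ x y, polar QA (Y x) y = polar QA x (Y y))
    (hcj : ∀ a, polar QA p a = 0 → ∃ c : F, cj (eich QA p a) Y - Y = c • (1 : Module.End F A)) :
    ∃ μ d : F, ∀ x, Y x = μ • x + (d * polar QA p x) • p := by
  classical
  have hF : Fintype F := Fintype.ofFinite F
  choose! c hc using hcj
  have key : ∀ a, polar QA p a = 0 → ∀ x, (eich QA p a : A ≃ₗ[F] A) (Y x) =
      Y ((eich QA p a : A ≃ₗ[F] A) x) + c a • (eich QA p a : A ≃ₗ[F] A) x := by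
    intro a ha x
    have h := congrArg (fun Z : Module.End F A => Z ((eich QA p a : A ≃ₗ[F] A) x))
      (sub_eq_iff_eq_add'.1 (hc a ha))
    simpa [cj_apply] using h
  have hWn := hp.inf_perp hQ
  have hWd := hp.finrank_pperp hQ
  obtain ⟨a₀, ha₀, hQa₀⟩ := exists_anisotropic hWn (by omega)
  set y := Y p with hy
  have e1 : ∀ a, polar QA p a = 0 →
      polar QA p y • a - (polar QA a y + QA a * polar QA p y) • p = c a • p := by
    intro a ha
    have h := key a ha p
    rw [eich_apply_self hp.left ha, eich_apply hp.left ha, ← hy] at h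
    calc _ = (y + polar QA p y • a - polar QA a y • p - (QA a * polar QA p y) • p) - y := by module
      _ = _ := by rw [h]; abel
  have hpy : polar QA p y = 0 := by
    have h := congrArg (polar QA a₀) (e1 a₀ (mem_pperp.1 ha₀).1)
    rw [polar_sub_right, polar_smul_right, polar_smul_right, polar_smul_right, polar_self',
      polar_comm (⇑QA) a₀ p, (mem_pperp.1 ha₀).1, smul_zero, sub_zero, smul_zero, smul_eq_mul] at h
    exact (mul_eq_zero.1 h).resolve_right (mul_ne_zero h2 hQa₀)
  have hca : ∀ a, polar QA p a = 0 → c a = -polar QA a y := by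
    intro a ha
    have h := congrArg (polar QA f) (e1 a ha)
    rw [hpy, zero_smul, zero_sub, mul_zero, add_zero, polar_neg_right, polar_smul_right,
      polar_smul_right, polar_comm (⇑QA) f p, hp.pair, smul_eq_mul, smul_eq_mul, mul_one, mul_one] at h
    exact h.symm
  have e2 : ∀ a ∈ pperp QA p f, ∀ z ∈ pperp QA p f, ∀ v ∈ pperp QA p f,
      polar QA y z * polar QA a v + polar QA a z * polar QA y v + polar QA a y * polar QA z v = 0 := by
    intro a ha z hz v hv
    have hpa := (mem_pperp.1 ha).1
    have h := congrArg (polar QA v) (key a hpa z)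
    simp only [eich_apply hp.left hpa, (mem_pperp.1 hz).1, zero_smul, mul_zero, add_zero, sub_zero,
      map_sub, map_smul, ← hy, hca a hpa, polar_add_right, polar_sub_right, polar_smul_right,
      polar_comm (⇑QA) v p, (mem_pperp.1 hv).1, smul_eq_mul] at h
    rw [← hYs p z, ← hy, polar_comm (⇑QA) v a, polar_comm (⇑QA) v y, polar_comm (⇑QA) v z] at h
    linear_combination h
  by_cases hy0 : ∀ z ∈ pperp QA p f, polar QA y z = 0
  swap
  · -- the spectrum would be invariant under all translations
    exfalso
    push Not at hy0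
    obtain ⟨z, hz, hyz⟩ := hy0
    have h3 : finrank F A = 3 := by
      by_contra hne
      refine hyz ?_
      have hR := restrict_nondegenerate hWn
      have aniso : ∀ a ∈ pperp QA p f, QA a ≠ 0 → ∀ v ∈ pperp QA p f, polar QA a v = 0 →
          polar QA y v = 0 := by
        intro a ha hQa v hv hav
        have h := e2 a ha a ha v hv
        rw [hav, mul_zero, mul_zero, zero_add, add_zero, polar_self'] at h
        exact (mul_eq_zero.1 h).resolve_left (mul_ne_zero h2 hQa)
      have hsp : perp (QA.restrict (pperp QA p f)) (Submodule.span F {(⟨a₀, ha₀⟩ : pperp QA p f)}) ⊓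
          perp (QA.restrict (pperp QA p f))
            (perp (QA.restrict (pperp QA p f)) (Submodule.span F {(⟨a₀, ha₀⟩ : pperp QA p f)})) = ⊥ := by
        have := (oFam_one (Q := QA.restrict (pperp QA p f)) (u := ⟨a₀, ha₀⟩) hQa₀).perp_nondeg hR h2
        simpa [Matrix.range_cons, Matrix.range_empty] using this
      obtain ⟨⟨b₀, hb₀⟩, hb, hQb⟩ := exists_anisotropic hsp (by
        have h' := finrank_perp_add hR (Submodule.span F {(⟨a₀, ha₀⟩ : pperp QA p f)})
        rw [finrank_span_singleton fun h0 => hQa₀ (by
          rw [show a₀ = 0 from congrArg Subtype.val h0, QuadraticMap.map_zero])] at h'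
        have hWd' : finrank F (pperp QA p f) + 2 = finrank F A := hWd
        have h'' : _ + 1 = finrank F (pperp QA p f) := h'
        omega)
      have hab : polar QA a₀ b₀ = 0 := (mem_perp_span.1 hb :)
      have h1 : polar QA y a₀ = 0 := aniso b₀ hb₀ hQb a₀ ha₀ (by rw [polar_comm]; exact hab)
      have hz' : polar QA a₀ (z - (polar QA a₀ z / (2 * QA a₀)) • a₀) = 0 := by
        rw [polar_sub_right, polar_smul_right, polar_self', smul_eq_mul,
          div_mul_cancel₀ _ (mul_ne_zero h2 hQa₀), sub_self]
      have h4 := aniso a₀ ha₀ hQa₀ _ (sub_mem hz (Submodule.smul_mem _ _ ha₀)) hz'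
      rwa [polar_sub_right, polar_smul_right, h1, smul_zero, sub_zero] at h4
    obtain ⟨bs, hb⟩ : ∃ b : Basis (Fin (finrank F A)) F A, b = Module.finBasis F A := ⟨_, rfl⟩
    set P := (LinearMap.toMatrix bs bs (-Y)).charpoly
    have hev : ∀ t : F, P.eval t = LinearMap.det (Y + t • (1 : Module.End F A)) := by
      intro t
      rw [Matrix.eval_charpoly, ← LinearMap.det_toMatrix bs]
      congr 1
      rw [map_add, map_smul, map_neg, LinearMap.toMatrix_one, sub_neg_eq_add, add_comm,
        Matrix.smul_one_eq_diagonal, Matrix.scalar_apply]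
    have hconst : ∀ t, P.eval t = (Polynomial.C (P.eval 0)).eval t := by
      intro t
      rw [Polynomial.eval_C]
      set a := (t / (-polar QA z y)) • z with ha
      have hpa : polar QA p a = 0 := by rw [ha, polar_smul_right, (mem_pperp.1 hz).1, smul_zero]
      have hct : c a = t := by
        rw [hca a hpa, ha, polar_smul_left, smul_eq_mul, ← mul_neg,
          div_mul_cancel₀ _ (neg_ne_zero.2 (by rwa [polar_comm]))]
      rw [hev, hev, zero_smul, add_zero, ← hct]
      have h := sub_eq_iff_eq_add'.1 (hc a hpa)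
      rw [← h]
      exact LinearMap.det_conj Y _
    have hdeg : P.natDegree = 3 := by
      rw [Matrix.charpoly_natDegree_eq_dim, Fintype.card_fin, h3]
    have hlt : 3 < Fintype.card F := by
      have h5 := hq h3
      rw [Nat.card_eq_fintype_card] at h5
      have h1 : 1 < Fintype.card F := Fintype.one_lt_card
      have hne2 : Nat.card F ≠ 2 := by
        intro hc; apply h2
        have := Nat.cast_card_eq_zero F
        rw [← Nat.card_eq_fintype_card, hc] at this
        exact_mod_cast this
      rw [Nat.card_eq_fintype_card] at hne2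
      omega
    have hPC := Polynomial.eq_of_natDegree_lt_card_of_eval_eq P (Polynomial.C (P.eval 0))
      (f := id) Function.injective_id hconst (by rw [Polynomial.natDegree_C, hdeg]; simpa using hlt)
    rw [hPC, Polynomial.natDegree_C] at hdeg
    omega
  -- the commutation case
  have hc0 : ∀ a ∈ pperp QA p f, c a = 0 := fun a ha => by
    rw [hca a (mem_pperp.1 ha).1, polar_comm, hy0 a ha, neg_zero]
  set μ := polar QA f y with hμ
  have hy' : y = μ • p := by
    rw [← sub_eq_zero]
    have hd := hp.decomp y
    rw [hpy, zero_smul, sub_zero, ← hμ] at hd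
    have hm : y - μ • p ∈ pperp QA p f ⊓ perp QA (pperp QA p f) :=
      ⟨hd, mem_perp.2 fun w hw => by
        rw [polar_sub_right, polar_smul_right, polar_comm (⇑QA) w y, hy0 w hw,
          polar_comm (⇑QA) w p, (mem_pperp.1 hw).1, smul_zero, sub_zero]⟩
    rwa [hWn, Submodule.mem_bot] at hm
  have hext : ∀ v : A, polar QA p v = 0 → polar QA f v = 0 →
      (∀ a ∈ pperp QA p f, polar QA a v = 0) → v = 0 := by
    intro v h1 h3 h4
    have hm : v ∈ pperp QA p f ⊓ perp QA (pperp QA p f) := ⟨mem_pperp.2 ⟨h1, h3⟩, mem_perp.2 h4⟩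
    rwa [hWn, Submodule.mem_bot] at hm
  have hfz : ∀ z ∈ pperp QA p f, ∀ a ∈ pperp QA p f, polar QA a (Y z) = μ * polar QA a z := by
    intro z hz a ha
    have hpa := (mem_pperp.1 ha).1
    have h := congrArg (polar QA f) (key a hpa z)
    simp only [eich_apply hp.left hpa, (mem_pperp.1 hz).1, zero_smul, mul_zero, add_zero, sub_zero,
      map_sub, map_smul, hc0 a ha, ← hy, polar_sub_right, polar_add_right, polar_smul_right,
      polar_comm (⇑QA) f p, hp.pair, (mem_pperp.1 ha).2, smul_eq_mul, ← hμ] at h
    rw [← hYs p z, ← hy, hy0 z hz] at h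
    linear_combination -h
  have hfa : ∀ a ∈ pperp QA p f, polar QA a (Y f) = 0 := by
    intro a ha
    have hpa := (mem_pperp.1 ha).1
    have hpYf : polar QA p (Y f) = μ := by rw [← hYs p f, ← hy, polar_comm]
    have h := congrArg (polar QA f) (key a hpa f)
    simp only [eich_apply hp.left hpa, hp.pair, one_smul, mul_one, hc0 a ha, zero_smul, add_zero,
      polar_comm (⇑QA) a f, (mem_pperp.1 ha).2, sub_zero, map_add, map_sub, map_smul, ← hy,
      polar_sub_right, polar_add_right, polar_smul_right, polar_comm (⇑QA) f p, smul_eq_mul, ← hμ,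
      hpYf] at h
    rw [← hYs f a, polar_comm (⇑QA) (Y f) a] at h
    exact (mul_eq_zero.1 (show (2 : F) * polar QA a (Y f) = 0 by linear_combination -h)).resolve_left h2
  have hform : ∀ x, Y x = μ • x + (polar QA f (Y f) * polar QA p x) • p := by
    intro x
    rw [← sub_eq_zero]
    have hd := hp.decomp x
    refine hext _ ?_ ?_ fun a ha => ?_
    · rw [polar_sub_right, polar_add_right, polar_smul_right, polar_smul_right, ← hYs p x, ← hy,
        hy', polar_smul_left, polar_self', hp.left]
      simp
    · rw [polar_sub_right, polar_add_right, polar_smul_right, polar_smul_right, ← hYs f x,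
        polar_comm (⇑QA) f p, hp.pair]
      have e : x = (x - polar QA f x • p - polar QA p x • f) + (polar QA f x • p + polar QA p x • f) := by
        module
      conv_lhs => arg 1; rw [e]
      rw [polar_add_right, polar_add_right, polar_smul_right, polar_smul_right,
        polar_comm (⇑QA) (Y f), hfa _ hd, polar_comm (⇑QA) (Y f) p, ← hYs p f, ← hy,
        polar_comm (⇑QA) y f, polar_comm (⇑QA) (Y f) f]
      simp only [smul_eq_mul, ← hμ]
      ring
    · rw [polar_sub_right, polar_add_right, polar_smul_right, polar_smul_right, ← hYs a x,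
        polar_comm (⇑QA) a p, (mem_pperp.1 ha).1]
      have e : x = (x - polar QA f x • p - polar QA p x • f) + (polar QA f x • p + polar QA p x • f) := by
        module
      conv_lhs => arg 1; rw [e]
      conv_lhs => arg 2; arg 1; rw [e]
      rw [hYs, map_add, map_add, map_smul, map_smul, ← hy, hy']
      simp only [polar_add_right, polar_smul_right, smul_smul, hfz _ hd a ha, hfa a ha,
        polar_comm (⇑QA) a p, polar_comm (⇑QA) a f, (mem_pperp.1 ha).1, (mem_pperp.1 ha).2, smul_eq_mul]
      ring
  exact ⟨μ, polar QA f (Y f), hform⟩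

/-- A self-adjoint operator commuting with its conjugates is a scalar. -/
theorem scalar_of_commuting (h2 : (2 : F) ≠ 0) (hQ : (polarBilin QA).Nondegenerate)
    (hA : 3 ≤ finrank F A) (hq : finrank F A = 3 → Nat.card F ≠ 3) (X : Module.End F A)
    (hsym : ∀ x y, polar QA (X x) y = polar QA x (X y))
    (hcomm : ∀ g ∈ commutator (orth QA), Commute X (cj g X)) :
    ∃ c : F, ∀ x, X x = c • x := by
  classical
  have hF : Fintype F := Fintype.ofFinite F
  obtain ⟨ℓ, hℓ⟩ := CharP.exists F
  have hℓp : ℓ.Prime := (CharP.char_is_prime_or_zero F ℓ).resolve_right fun h => by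
    subst h; exact CharP.char_ne_zero_of_finite F 0 rfl
  have : Fact ℓ.Prime := ⟨hℓp⟩
  set S : Submodule F (Module.End F A) := Submodule.span F {1} with hS
  by_contra hns
  have hXS : X ∉ S := fun h => hns (by
    obtain ⟨c, rfl⟩ := Submodule.mem_span_singleton.1 h
    exact ⟨c, fun x => rfl⟩)
  set W : Submodule F (Module.End F A) := Submodule.span F
    (insert 1 {Y | ∃ g ∈ commutator (orth QA), Y = cj g X}) with hW
  have hXW : X ∈ W := Submodule.subset_span (Or.inr ⟨1, one_mem _, by rw [cj_id]; rfl⟩)
  have hWsym : ∀ Y ∈ W, ∀ x y, polar QA (Y x) y = polar QA x (Y y) := by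
    intro Y hY
    induction hY using Submodule.span_induction with
    | mem Y hY =>
      rcases hY with rfl | ⟨g, -, rfl⟩
      · exact fun x y => rfl
      · exact cj_symm hsym
    | zero => exact fun x y => by simp
    | add a b _ _ ha hb => exact fun x y => by simp [polar_add_left, polar_add_right, ha, hb]
    | smul c a _ ha => exact fun x y => by simp [polar_smul_left, polar_smul_right, ha]
  have hWcomm : ∀ Y ∈ W, ∀ Z ∈ W, Commute Y Z := by
    intro Y hY Z hZ
    induction hY, hZ using Submodule.span_induction₂ with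
    | mem_mem Y Z hY hZ =>
      rcases hY with rfl | ⟨g, hg, rfl⟩
      · exact Commute.one_left _
      rcases hZ with rfl | ⟨h, hh, rfl⟩
      · exact Commute.one_right _
      have h1 := hcomm (g⁻¹ * h) (mul_mem (inv_mem hg) hh)
      have h2 : cj g (cj (g⁻¹ * h) X) = cj h X := by
        rw [← Module.End.mul_apply, ← cj_mul, mul_inv_cancel_left]
      have h3 := congrArg (cj g) h1.eq
      rwa [cj_mul_apply, cj_mul_apply, h2] at h3
    | zero_left => exact Commute.zero_left _
    | zero_right => exact Commute.zero_right _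
    | add_left _ _ _ _ _ _ h1 h2 => exact h1.add_left h2
    | add_right _ _ _ _ _ _ h1 h2 => exact h1.add_right h2
    | smul_left _ _ _ _ _ h => exact h.smul_left _
    | smul_right _ _ _ _ _ h => exact h.smul_right _
  have hWcj : ∀ g ∈ commutator (orth QA), ∀ Y ∈ W, cj g Y ∈ W := by
    intro g hg Y hY
    induction hY using Submodule.span_induction with
    | mem Y hY =>
      rcases hY with rfl | ⟨h, hh, rfl⟩
      · rw [cj_one_apply]; exact Submodule.subset_span (Or.inl rfl)
      · exact Submodule.subset_span (Or.inr ⟨g * h, mul_mem hg hh, by rw [cj_mul]; rfl⟩)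
    | zero => rw [map_zero]; exact W.zero_mem
    | add a b _ _ ha hb => rw [map_add]; exact W.add_mem ha hb
    | smul c a _ ha => rw [map_smul]; exact W.smul_mem c ha
  have hnt : Nontrivial A := Module.nontrivial_of_finrank_pos (R := F) (by omega)
  have : CharP (Module.End F (Module.End F A)) ℓ :=
    charP_of_injective_algebraMap (algebraMap F (Module.End F (Module.End F A))).injective ℓ
  -- a non-scalar element moved only by scalars under a root group
  have step : ∀ p f, HypPair QA p f → ∃ Y ∈ W, Y ∉ S ∧
      ∀ a, polar QA p a = 0 → ∃ c : F, cj (eich QA p a) Y - Y = c • (1 : Module.End F A) := by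
    intro p f hp
    let D : A → Module.End F (Module.End F A) := fun a => cj (eich QA p a) - 1
    have hD1 : ∀ a, D a 1 = 0 := fun a => by
      change cj (eich QA p a) 1 - 1 = 0
      rw [cj_one_apply, sub_self]
    have hDpow : ∀ a, polar QA p a = 0 → D a ^ ℓ = 0 := by
      intro a ha
      have hpow : ∀ n : ℕ, cj (eich QA p a) ^ n = cj (eich QA p ((n : F) • a)) := by
        intro n
        induction n with
        | zero => rw [pow_zero, Nat.cast_zero, zero_smul, eich_zero, cj_id]
        | succ n ih =>
          rw [pow_succ, ih, ← cj_mul, eich_mul hp.left (by rw [polar_smul_right, ha, smul_zero]) ha,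
            Nat.cast_succ, add_smul, one_smul]
      change (cj (eich QA p a) - 1) ^ ℓ = 0
      rw [sub_pow_char_of_commute ℓ (Commute.one_right _), one_pow, hpow, CharP.cast_eq_zero, zero_smul,
        eich_zero, cj_id, sub_self]
    have hDS : ∀ a (n : ℕ) Y, Y ∈ S → (D a ^ n) Y ∈ S := by
      intro a n Y hY
      induction n with
      | zero => exact hY
      | succ n ih =>
        rw [pow_succ', Module.End.mul_apply]
        obtain ⟨c, hc⟩ := Submodule.mem_span_singleton.1 ih
        rw [← hc, map_smul, hD1, smul_zero]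
        exact S.zero_mem
    have hDW : ∀ a (n : ℕ) Y, Y ∈ W → (D a ^ n) Y ∈ W := by
      intro a n Y hY
      induction n with
      | zero => exact hY
      | succ n ih =>
        rw [pow_succ', Module.End.mul_apply]
        exact W.sub_mem (hWcj _ (eich_mem_omega hQ h2 p a) _ ih) ih
    have hDD : ∀ a b, polar QA p a = 0 → polar QA p b = 0 → Commute (D a) (D b) := by
      intro a b ha hb
      have : Commute (cj (eich QA p a)) (cj (eich QA p b)) := by
        change _ * _ = _ * _
        rw [← cj_mul, ← cj_mul, eich_mul hp.left ha hb, eich_mul hp.left hb ha, add_comm]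
      exact (this.sub_left (Commute.one_left _)).sub_right (Commute.one_right _)
    haveI : Fintype A := Fintype.ofFinite A
    suffices h : ∀ s : Finset A, ∃ Y ∈ W, Y ∉ S ∧ ∀ a ∈ s, polar QA p a = 0 → D a Y ∈ S by
      obtain ⟨Y, hY, hYS, hh⟩ := h Finset.univ
      refine ⟨Y, hY, hYS, fun a ha => ?_⟩
      obtain ⟨c, hc⟩ := Submodule.mem_span_singleton.1 (hh a (Finset.mem_univ a) ha)
      exact ⟨c, hc.symm⟩
    intro s
    induction s using Finset.induction with
    | empty => exact ⟨X, hXW, hXS, fun a ha => absurd ha (Finset.notMem_empty a)⟩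
    | insert b s _ ih =>
      obtain ⟨Y, hY, hYS, hh⟩ := ih
      by_cases hb : polar QA p b = 0
      swap
      · refine ⟨Y, hY, hYS, fun a ha hpa => ?_⟩
        rcases Finset.mem_insert.1 ha with rfl | ha
        · exact absurd hpa hb
        · exact hh a ha hpa
      obtain ⟨n, hn1, hn2⟩ := exists_last_iterate (D b) (hDpow b hb) S hYS
      refine ⟨(D b ^ n) Y, hDW b n Y hY, hn1, fun a ha hpa => ?_⟩
      rcases Finset.mem_insert.1 ha with rfl | ha
      · exact hn2
      · rw [← Module.End.mul_apply, ((hDD a b hpa hb).pow_right n).eq, Module.End.mul_apply]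
        exact hDS b n _ (hh a ha hpa)
  -- the rank one element
  have rankOne : ∀ p f, HypPair QA p f →
      ∃ Y ∈ W, ∀ x, Y x = polar QA p x • p := by
    intro p f hp
    obtain ⟨Y, hY, hYS, hc⟩ := step p f hp
    obtain ⟨μ, d, hform⟩ := fixed_form h2 hQ hA hq hp Y (hWsym Y hY) hc
    have hd0 : d ≠ 0 := fun h0 => hYS (Submodule.mem_span_singleton.2
      ⟨μ, LinearMap.ext fun x => by rw [hform, h0, zero_mul, zero_smul, add_zero]; rfl⟩)
    refine ⟨d⁻¹ • (Y - μ • 1),
      W.smul_mem _ (W.sub_mem hY (W.smul_mem _ (Submodule.subset_span (Or.inl rfl)))), fun x => ?_⟩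
    rw [LinearMap.smul_apply, LinearMap.sub_apply, LinearMap.smul_apply, Module.End.one_apply,
      sub_eq_iff_eq_add'.2 (hform x), smul_smul, ← mul_assoc, inv_mul_cancel₀ hd0, one_mul]
  obtain ⟨p, hp0, hp⟩ := H5.exists_singular hQ hA
  obtain ⟨f, hpf⟩ := exists_hypPair hQ hp0 hp
  obtain ⟨P₁, hP₁, e₁⟩ := rankOne p f hpf
  obtain ⟨P₂, hP₂, e₂⟩ := rankOne f p hpf.symm
  have h := congrArg (fun Z : Module.End F A => Z p) (hWcomm P₁ hP₁ P₂ hP₂).eq
  simp only [Module.End.mul_apply, e₁, e₂, polar_self', hpf.left, mul_zero, zero_smul, polar_zero_right,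
    smul_zero, polar_comm (⇑QA) f p, hpf.pair, one_smul] at h
  exact hp0 h

end Cfsg.Agent.H19.OrthTensor
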