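import Cfsg.Agent.H19.OrthTensor.Layer

/-!
Dimensions of the eigenspaces of tensor products of involutions.
-/

set_option autoImplicit false
set_option linter.unusedSectionVars false

namespace Cfsg.Agent.H19.OrthTensor

open QuadraticMap hiding sq
open Cfsg.Agent.H5 Module

variable {F V A B : Type*} [Field F] [Finite F] [AddCommGroup V] [Module F V] [Finite V]
  [FiniteDimensional F V] [AddCommGroup A] [Module F A] [Finite A] [FiniteDimensional F A]
  [AddCommGroup B] [Module F B] [Finite B] [FiniteDimensional F B]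
  {Q : QuadraticForm F V} {QA : QuadraticForm F A} {QB : QuadraticForm F B}
  {pu : A →ₗ[F] B →ₗ[F] V}

namespace TO

variable (T : TO Q QA QB pu)
include T

/-- Coordinates along a basis of the first factor. -/
theorem bijective_coord {ι : Type*} [Fintype ι] (bs : Basis ι F A) :
    Function.Bijective (∑ i, (pu (bs i)).comp (LinearMap.proj i) : (ι → B) →ₗ[F] V) := by
  have happ : ∀ f : ι → B, (∑ i, (pu (bs i)).comp (LinearMap.proj i) : (ι → B) →ₗ[F] V) f =
      ∑ i, pu (bs i) (f i) := fun f => by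
    simp [LinearMap.sum_apply]
  refine ⟨(injective_iff_map_eq_zero _).2 fun f hf => funext fun i => T.extB fun w => ?_, ?_⟩
  · rw [happ] at hf
    have h : (∑ j, polar QB w (f j) • bs j) = 0 := by
      have := congrArg (T.C w) hf
      rw [map_sum, map_zero] at this
      rw [← this]
      exact Finset.sum_congr rfl fun j _ => by rw [T.C_pu, polar_comm]
    rw [Pi.zero_apply, polar_zero_left, polar_comm]
    exact Fintype.linearIndependent_iff.1 bs.linearIndependent _ h i
  · rw [← LinearMap.range_eq_top, eq_top_iff, ← T.span_top, Submodule.span_le]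
    rintro _ ⟨x, u, rfl⟩
    refine ⟨fun i => bs.repr x i • u, ?_⟩
    rw [happ]
    conv_rhs => rw [← bs.sum_repr x, map_sum, LinearMap.sum_apply]
    exact Finset.sum_congr rfl fun i _ => by simp

theorem finrank_mul : finrank F V = finrank F A * finrank F B := by
  have := (LinearEquiv.ofBijective _ (T.bijective_coord (Module.finBasis F A))).finrank_eq
  rw [← this, Module.finrank_pi_fintype, Finset.sum_const, Finset.card_univ, Fintype.card_fin,
    smul_eq_mul]

/-- The eigenspace of the eigenvalue `-1` of a tensor product of two involutions. -/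
theorem negDim_kL_kR {g : orth QA} (hg : g * g = 1) (k : orth QB) :
    negDim (T.kL g * T.kR k) =
      finrank F (fixer g) * negDim k + negDim g * finrank F (fixer k) := by
  set bs := ((Module.finBasis F (fixer g)).prod (Module.finBasis F (negSp g))).map
    (Submodule.prodEquivOfIsCompl _ _ (isCompl_eigen T.two hg)) with hbs
  set Φ := LinearEquiv.ofBijective _ (T.bijective_coord bs) with hΦ
  let S : (Fin (finrank F (fixer g)) ⊕ Fin (finrank F (negSp g))) → Submodule F B :=
    Sum.elim (fun _ => negSp k) (fun _ => fixer k)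
  let ε : (Fin (finrank F (fixer g)) ⊕ Fin (finrank F (negSp g))) → F :=
    Sum.elim (fun _ => 1) (fun _ => -1)
  have hε : ∀ i, (g : A ≃ₗ[F] A) (bs i) = ε i • bs i := by
    rintro (i | i)
    · have : bs (Sum.inl i) = (Module.finBasis F (fixer g) i : A) := by simp [hbs]
      rw [this, mem_fixer.1 (Module.finBasis F (fixer g) i).2]
      simp [ε]
    · have : bs (Sum.inr i) = (Module.finBasis F (negSp g) i : A) := by simp [hbs]
      rw [this, mem_negSp.1 (Module.finBasis F (negSp g) i).2]
      simp [ε]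
  have hΦapp : ∀ f, Φ f = ∑ i, pu (bs i) (f i) := fun f => by
    simp [hΦ, LinearMap.sum_apply]
  have hact : ∀ f, ((T.kL g * T.kR k : orth Q) : V ≃ₗ[F] V) (Φ f) =
      Φ (fun i => ε i • (k : B ≃ₗ[F] B) (f i)) := by
    intro f
    rw [hΦapp, hΦapp, map_sum]
    refine Finset.sum_congr rfl fun i _ => ?_
    rw [orth_mul_apply, T.kR_pu, T.kL_pu, hε, map_smul, LinearMap.smul_apply, map_smul]
  have hS : ∀ i (u : B), u ∈ S i ↔ ε i • (k : B ≃ₗ[F] B) u = -u := by
    rintro (i | i) u
    · simp only [S, ε, Sum.elim_inl, one_smul]; exact mem_negSp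
    · simp only [S, ε, Sum.elim_inr, neg_smul, one_smul, neg_inj]; exact mem_fixer
  have hmem : ∀ f, Φ f ∈ negSp (T.kL g * T.kR k) ↔ ∀ i, f i ∈ S i := by
    intro f
    rw [mem_negSp, hact, ← map_neg, Φ.injective.eq_iff, funext_iff]
    exact forall_congr' fun i => (hS i (f i)).symm
  let L : (∀ i, S i) →ₗ[F] negSp (T.kL g * T.kR k) :=
    { toFun := fun f => ⟨Φ fun i => (f i : B), (hmem _).2 fun i => (f i).2⟩
      map_add' := fun f f' => Subtype.ext (map_add Φ (fun i => (f i : B)) fun i => (f' i : B))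
      map_smul' := fun c f => Subtype.ext (map_smul Φ c fun i => (f i : B)) }
  have hL : Function.Bijective L := by
    refine ⟨fun f f' h => ?_, fun v => ?_⟩
    · have h1 := congrArg (fun w : negSp (T.kL g * T.kR k) => Φ.symm (w : V)) h
      simp only [L, LinearMap.coe_mk, AddHom.coe_mk, LinearEquiv.symm_apply_apply] at h1
      exact funext fun i => Subtype.ext (congrFun h1 i)
    obtain ⟨f, hf⟩ := Φ.surjective (v : V)
    exact ⟨fun i => ⟨f i, (hmem f).1 (hf ▸ v.2) i⟩, Subtype.ext hf⟩
  rw [negDim, ← (LinearEquiv.ofBijective L hL).finrank_eq, Module.finrank_pi_fintype, Fintype.sum_sum_type]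
  show ∑ _a : Fin (finrank F (fixer g)), finrank F (negSp k) +
      ∑ _b : Fin (finrank F (negSp g)), finrank F (fixer k) = _
  simp [negDim]

theorem negDim_kR (k : orth QB) : negDim (T.kR k) = finrank F A * negDim k := by
  have h := T.negDim_kL_kR (g := (1 : orth QA)) (one_mul 1) k
  have h1 : fixer (1 : orth QA) = ⊤ := Submodule.eq_top_iff'.2 fun x => mem_fixer.2 rfl
  rwa [map_one, one_mul, negDim_one T.two, h1, finrank_top, zero_mul, add_zero] at h

theorem negDim_kL (g : orth QA) : negDim (T.kL g) = finrank F B * negDim g := T.swap.negDim_kR g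

theorem kR_injective (hA : 1 ≤ finrank F A) : Function.Injective T.kR := by
  intro k k' h
  have : Nontrivial A := Module.nontrivial_of_finrank_pos (R := F) (by omega)
  obtain ⟨x, hx⟩ := exists_ne (0 : A)
  refine orth_ext fun u => sub_eq_zero.1 (T.pu_eq_zero_right ?_ hx)
  rw [map_sub, ← T.kR_pu, ← T.kR_pu, h, sub_self]

theorem isPure_kR (k : orth QB) : IsPureT pu (T.kR k) :=
  ⟨LinearMap.id, ((k : B ≃ₗ[F] B) : B →ₗ[F] B), fun x u => T.kR_pu k x u⟩

theorem isPure_mul {m m' : orth Q} (h : IsPureT pu m) (h' : IsPureT pu m') : IsPureT pu (m * m') := by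
  obtain ⟨G, K, hG⟩ := h
  obtain ⟨G', K', hG'⟩ := h'
  exact ⟨G.comp G', K.comp K', fun x u => by rw [orth_mul_apply, hG', hG]; rfl⟩

/-- A pure element acting as a scalar on one layer comes from the second factor. -/
theorem exists_kR (hA : 3 ≤ finrank F A) {m : orth Q} (hp : IsPureT pu m) {u : B} (hu : u ≠ 0)
    {σ : F} (h : ∀ x, (m : V ≃ₗ[F] V) (pu x u) = σ • pu x u) : ∃ k : orth QB, m = T.kR k := by
  obtain ⟨G, K, hGK⟩ := hp
  have : Nontrivial A := Module.nontrivial_of_finrank_pos (R := F) (by omega)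
  obtain ⟨x₁, hx₁⟩ := exists_ne (0 : A)
  have hσ : σ ≠ 0 := by
    intro h0
    refine hu (T.pu_eq_zero_right ?_ hx₁)
    apply (m : V ≃ₗ[F] V).injective
    rw [h, h0, zero_smul, map_zero]
  obtain ⟨w, hw⟩ := exists_polar_eq_one (Q := QB) T.ndB hu
  have hG : ∀ x, polar QB w (K u) • G x = σ • x := fun x => by
    have h1 := congrArg (T.C w) (h x)
    rw [hGK, map_smul, T.C_pu, T.C_pu, hw, one_smul, polar_comm] at h1
    exact h1
  set β := polar QB w (K u) with hβ
  have hβ0 : β ≠ 0 := fun h0 => hx₁ (by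
    have := hG x₁
    rw [h0, zero_smul, eq_comm, smul_eq_zero] at this
    exact this.resolve_left hσ)
  have hm : ∀ x v, (m : V ≃ₗ[F] V) (pu x v) = pu x ((σ / β) • K v) := fun x v => by
    rw [hGK, map_smul, ← LinearMap.smul_apply, ← map_smul, div_eq_inv_mul, mul_smul, ← hG,
      inv_smul_smul₀ hβ0]
  have hinj : Function.Injective ((σ / β) • K) := by
    refine (injective_iff_map_eq_zero _).2 fun v hv => T.pu_eq_zero_right ?_ hx₁
    apply (m : V ≃ₗ[F] V).injective
    rw [hm, ← LinearMap.smul_apply, hv, map_zero, map_zero]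
  obtain ⟨x, hx⟩ : ∃ x, QA x ≠ 0 := by
    obtain ⟨e₁, he₁0, he₁⟩ := H5.exists_singular (Q := QA) T.ndA hA
    obtain ⟨f₁, hf₁⟩ := exists_hypPair (Q := QA) T.ndA he₁0 he₁
    exact ⟨e₁ + f₁, by rw [QuadraticMap.map_add (⇑QA), he₁, hf₁.right, hf₁.pair]; simp⟩
  refine ⟨⟨LinearEquiv.ofBijective _ ⟨hinj, Finite.surjective_of_injective hinj⟩, fun v => ?_⟩,
    T.orth_ext_pu fun y v => by rw [T.kR_pu, hm]; rfl⟩
  have h1 := orth_map m (pu x v)
  rw [hm, T.Q_pu, T.Q_pu] at h1
  exact mul_left_cancel₀ hx (mul_left_cancel₀ T.two h1)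

end TO

end Cfsg.Agent.H19.OrthTensor
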