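import Cfsg.Agent.H5.RootClosure
import Cfsg.Agent.H5.OmegaCriterion
import Cfsg.Agent.H5.NormTransitive

/-!
Orthogonal families, eigenspaces of involutive isometries, and the involutions of `Ω` which are
products of reflections in orthogonal families.
-/

set_option autoImplicit false
set_option linter.unusedSectionVars false

namespace Cfsg.Agent.H19.OrthTensor

open QuadraticMap hiding sq
open Cfsg.Agent.H5 Module

variable {F V : Type*} [Field F] [AddCommGroup V] [Module F V] [FiniteDimensional F V]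
  {Q : QuadraticForm F V}

/-- An orthogonal family of non-singular vectors. -/
structure OFam (Q : QuadraticForm F V) {n : ℕ} (p : Fin n → V) : Prop where
  ne : ∀ i, Q (p i) ≠ 0
  orth : ∀ i j, i ≠ j → polar Q (p i) (p j) = 0

theorem oFam_empty : OFam Q (Fin.elim0 : Fin 0 → V) := ⟨fun i => i.elim0, fun i => i.elim0⟩

theorem oFam_one {u : V} (hu : Q u ≠ 0) : OFam Q ![u] :=
  ⟨fun i => by fin_cases i; exact hu, fun i j h => absurd (Subsingleton.elim i j) h⟩

theorem oFam_two {u w : V} (hu : Q u ≠ 0) (hw : Q w ≠ 0) (h : polar Q u w = 0) : OFam Q ![u, w] :=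
  ⟨fun i => by fin_cases i <;> assumption, fun i j hij => by
    fin_cases i <;> fin_cases j <;> simp_all [polar_comm (⇑Q) w u]⟩

theorem OFam.snoc {n : ℕ} {p : Fin n → V} (hp : OFam Q p) {x : V} (hx : Q x ≠ 0)
    (ho : ∀ i, polar Q (p i) x = 0) : OFam Q (Fin.snoc p x) := by
  refine ⟨fun i => ?_, fun i j hij => ?_⟩
  · cases i using Fin.lastCases with
    | last => rwa [Fin.snoc_last]
    | cast i => rw [Fin.snoc_castSucc]; exact hp.ne i
  · cases i using Fin.lastCases with
    | last =>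
      cases j using Fin.lastCases with
      | last => exact absurd rfl hij
      | cast j => rw [Fin.snoc_last, Fin.snoc_castSucc, polar_comm]; exact ho j
    | cast i =>
      cases j using Fin.lastCases with
      | last => rw [Fin.snoc_last, Fin.snoc_castSucc]; exact ho i
      | cast j =>
        rw [Fin.snoc_castSucc, Fin.snoc_castSucc]
        exact hp.orth i j fun h => hij (by rw [h])

theorem OFam.comp {n m : ℕ} {p : Fin n → V} (hp : OFam Q p) {f : Fin m → Fin n}
    (hf : Function.Injective f) : OFam Q (p ∘ f) :=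
  ⟨fun i => hp.ne _, fun _ _ h => hp.orth _ _ fun e => h (hf e)⟩

theorem OFam.coeff_zero (h2 : (2 : F) ≠ 0) {n : ℕ} {p : Fin n → V} (hp : OFam Q p) (c : Fin n → F)
    (h : ∀ i, polar Q (p i) (∑ j, c j • p j) = 0) (i : Fin n) : c i = 0 := by
  have hsum : polar Q (p i) (∑ j, c j • p j) = c i * (2 * Q (p i)) := by
    rw [← polarBilin_apply_apply, map_sum, Finset.sum_eq_single i]
    · rw [map_smul, polarBilin_apply_apply, polar_self', smul_eq_mul]
    · intro j _ hj
      rw [map_smul, polarBilin_apply_apply, hp.orth i j hj.symm, smul_zero]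
    · simp
  exact (mul_eq_zero.1 (hsum.symm.trans (h i))).resolve_right (mul_ne_zero h2 (hp.ne i))

theorem mem_perp_range {n : ℕ} {p : Fin n → V} {x : V} :
    x ∈ perp Q (Submodule.span F (Set.range p)) ↔ ∀ i, polar Q (p i) x = 0 := by
  refine ⟨fun h i => mem_perp.1 h _ (Submodule.subset_span ⟨i, rfl⟩), fun h => mem_perp.2 fun w hw => ?_⟩
  induction hw using Submodule.span_induction with
  | mem y hy => obtain ⟨i, rfl⟩ := hy; exact h i
  | zero => exact polar_zero_left ..
  | add a b _ _ ha hb => rw [polar_add_left, ha, hb, add_zero]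
  | smul c a _ ha => rw [polar_smul_left, ha, smul_zero]

theorem OFam.inf_perp (h2 : (2 : F) ≠ 0) {n : ℕ} {p : Fin n → V} (hp : OFam Q p) :
    Submodule.span F (Set.range p) ⊓ perp Q (Submodule.span F (Set.range p)) = ⊥ := by
  rw [eq_bot_iff]
  rintro x ⟨hx, hx'⟩
  obtain ⟨c, rfl⟩ := (Submodule.mem_span_range_iff_exists_fun F).1 hx
  have := hp.coeff_zero h2 c (mem_perp_range.1 hx')
  simp [this]

theorem OFam.linearIndependent (h2 : (2 : F) ≠ 0) {n : ℕ} {p : Fin n → V} (hp : OFam Q p) :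
    LinearIndependent F p :=
  Fintype.linearIndependent_iff.2 fun c hc i => hp.coeff_zero h2 c (fun _ => by rw [hc, polar_zero_right]) i

theorem OFam.finrank_span (h2 : (2 : F) ≠ 0) {n : ℕ} {p : Fin n → V} (hp : OFam Q p) :
    Module.finrank F (Submodule.span F (Set.range p)) = n := by
  rw [finrank_span_eq_card (hp.linearIndependent h2), Fintype.card_fin]

theorem OFam.le_finrank (h2 : (2 : F) ≠ 0) {n : ℕ} {p : Fin n → V} (hp : OFam Q p) :
    n ≤ Module.finrank F V :=
  le_of_eq_of_le (hp.finrank_span h2).symm (Submodule.finrank_le _)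

theorem OFam.perp_nondeg (hQ : (polarBilin Q).Nondegenerate) (h2 : (2 : F) ≠ 0) {n : ℕ} {p : Fin n → V}
    (hp : OFam Q p) :
    perp Q (Submodule.span F (Set.range p)) ⊓ perp Q (perp Q (Submodule.span F (Set.range p))) = ⊥ := by
  rw [perp_perp hQ, inf_comm]
  exact hp.inf_perp h2

theorem OFam.finrank_perp_eq (hQ : (polarBilin Q).Nondegenerate) (h2 : (2 : F) ≠ 0) {n : ℕ}
    {p : Fin n → V} (hp : OFam Q p) :
    Module.finrank F (perp Q (Submodule.span F (Set.range p))) + n = Module.finrank F V := by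
  have := finrank_perp_add hQ (Submodule.span F (Set.range p))
  rwa [hp.finrank_span h2] at this

/-- A subspace complementary to its perp is complemented by it. -/
theorem isCompl_perp (hQ : (polarBilin Q).Nondegenerate) {W : Submodule F V} (h : W ⊓ perp Q W = ⊥) :
    IsCompl W (perp Q W) := by
  refine ⟨disjoint_iff.2 h, codisjoint_iff.2 (Submodule.eq_top_of_finrank_eq ?_)⟩
  have h1 := Submodule.finrank_sup_add_finrank_inf_eq W (perp Q W)
  rw [h, finrank_bot] at h1
  have h3 := finrank_perp_add hQ W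
  omega

/-- A vector orthogonal to a spanning orthogonal family is zero. -/
theorem OFam.eq_zero (hQ : (polarBilin Q).Nondegenerate) (h2 : (2 : F) ≠ 0) {n : ℕ} {p : Fin n → V}
    (hp : OFam Q p) (hn : n = Module.finrank F V) {x : V} (h : ∀ i, polar Q (p i) x = 0) : x = 0 := by
  have h1 := hp.finrank_perp_eq hQ h2
  have h3 : perp Q (Submodule.span F (Set.range p)) = ⊥ := Submodule.finrank_eq_zero.1 (by omega)
  simpa [h3] using mem_perp_range.2 h

variable [Finite F]

theorem OFam.exists_perp_norm (hQ : (polarBilin Q).Nondegenerate) (h2 : (2 : F) ≠ 0) {n : ℕ}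
    {p : Fin n → V} (hp : OFam Q p) (hn : n + 2 ≤ Module.finrank F V) (c : F) :
    ∃ x, Q x = c ∧ ∀ i, polar Q (p i) x = 0 := by
  have := hp.finrank_perp_eq hQ h2
  obtain ⟨x, hx, hq⟩ := exists_mem_norm_eq (hp.perp_nondeg hQ h2) (by omega) c
  exact ⟨x, hq, mem_perp_range.1 hx⟩

theorem OFam.exists_perp_aniso (hQ : (polarBilin Q).Nondegenerate) (h2 : (2 : F) ≠ 0) {n : ℕ}
    {p : Fin n → V} (hp : OFam Q p) (hn : n + 1 ≤ Module.finrank F V) :
    ∃ x, Q x ≠ 0 ∧ ∀ i, polar Q (p i) x = 0 := by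
  have := hp.finrank_perp_eq hQ h2
  obtain ⟨x, hx, hq⟩ := exists_anisotropic (hp.perp_nondeg hQ h2) (by omega)
  exact ⟨x, hq, mem_perp_range.1 hx⟩

/-- A singular vector and a non-singular vector orthogonal to it in a subspace of dimension three. -/
theorem exists_eta_in {W : Submodule F V} (h : W ⊓ perp Q W = ⊥) (hd : 3 ≤ Module.finrank F W) :
    ∃ e ∈ W, ∃ η ∈ W, e ≠ 0 ∧ Q e = 0 ∧ polar Q e η = 0 ∧ Q η ≠ 0 := by
  have hR := restrict_nondegenerate h
  obtain ⟨e, he0, he⟩ := H5.exists_singular hR hd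
  obtain ⟨f, hf⟩ := exists_hypPair hR he0 he
  obtain ⟨η, hη, hqη⟩ := exists_anisotropic (hf.inf_perp hR) (by have := hf.finrank_pperp hR; omega)
  exact ⟨e, e.2, η, η.2, fun h0 => he0 (Subtype.ext h0), he, (mem_pperp.1 hη).1, hqη⟩

theorem OFam.exists_eta (hQ : (polarBilin Q).Nondegenerate) (h2 : (2 : F) ≠ 0) {n : ℕ}
    {p : Fin n → V} (hp : OFam Q p) (hn : n + 3 ≤ Module.finrank F V) :
    ∃ e η, e ≠ 0 ∧ Q e = 0 ∧ polar Q e η = 0 ∧ Q η ≠ 0 ∧ (∀ i, polar Q (p i) e = 0) ∧
      ∀ i, polar Q (p i) η = 0 := by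
  have := hp.finrank_perp_eq hQ h2
  obtain ⟨e, he, η, hη, h1, h3, h4, h5⟩ := exists_eta_in (hp.perp_nondeg hQ h2) (by omega)
  exact ⟨e, η, h1, h3, h4, h5, mem_perp_range.1 he, mem_perp_range.1 hη⟩

theorem exists_oFam_norm (hQ : (polarBilin Q).Nondegenerate) (h2 : (2 : F) ≠ 0) {c : F} (hc : c ≠ 0) :
    ∀ n, n + 1 ≤ Module.finrank F V → ∃ p : Fin n → V, OFam Q p ∧ ∀ i, Q (p i) = c
  | 0, _ => ⟨Fin.elim0, oFam_empty, fun i => i.elim0⟩
  | n + 1, h => by
    obtain ⟨p, hp, hq⟩ := exists_oFam_norm hQ h2 hc n (by omega)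
    obtain ⟨x, hx, ho⟩ := hp.exists_perp_norm hQ h2 (by omega) c
    refine ⟨Fin.snoc p x, hp.snoc (by rwa [hx]) ho, fun i => ?_⟩
    cases i using Fin.lastCases with
    | last => rw [Fin.snoc_last, hx]
    | cast i => rw [Fin.snoc_castSucc, hq]

/-! ### Eigenspaces -/

/-- The eigenspace of the eigenvalue `-1`. -/
def negSp (g : orth Q) : Submodule F V :=
  LinearMap.ker (((g : V ≃ₗ[F] V) : V →ₗ[F] V) + LinearMap.id)

theorem mem_negSp {g : orth Q} {x : V} : x ∈ negSp g ↔ (g : V ≃ₗ[F] V) x = -x := by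
  rw [negSp, LinearMap.mem_ker, LinearMap.add_apply, LinearEquiv.coe_coe, LinearMap.id_apply,
    add_eq_zero_iff_eq_neg]

/-- The dimension of the eigenspace of the eigenvalue `-1`. -/
noncomputable def negDim (g : orth Q) : ℕ := Module.finrank F (negSp g)

theorem invol_apply {g : orth Q} (hg : g * g = 1) (x : V) :
    (g : V ≃ₗ[F] V) ((g : V ≃ₗ[F] V) x) = x := by
  rw [← orth_mul_apply, hg]; rfl

theorem fixer_perp_negSp (h2 : (2 : F) ≠ 0) {g : orth Q} {x y : V} (hx : x ∈ fixer g)
    (hy : y ∈ negSp g) : polar Q x y = 0 := by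
  have h := orth_polar g x y
  rw [mem_fixer.1 hx, mem_negSp.1 hy, polar_neg_right] at h
  exact (mul_eq_zero.1 (show (2 : F) * polar Q x y = 0 by linear_combination -h)).resolve_left h2

theorem isCompl_eigen (h2 : (2 : F) ≠ 0) {g : orth Q} (hg : g * g = 1) :
    IsCompl (fixer g) (negSp g) := by
  refine ⟨disjoint_iff.2 ?_, codisjoint_iff.2 ?_⟩
  · rw [eq_bot_iff]
    rintro x ⟨hx, hy⟩
    rw [Submodule.mem_bot]
    have h : (2 : F) • x = 0 := by
      rw [two_smul]
      conv_lhs => arg 1; rw [← mem_fixer.1 hx, mem_negSp.1 hy]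
      exact neg_add_cancel x
    exact (smul_eq_zero.1 h).resolve_left h2
  · rw [eq_top_iff]
    intro x _
    have e : x = (2 : F)⁻¹ • (x + (g : V ≃ₗ[F] V) x) + (2 : F)⁻¹ • (x - (g : V ≃ₗ[F] V) x) := by
      rw [← smul_add, show x + (g : V ≃ₗ[F] V) x + (x - (g : V ≃ₗ[F] V) x) = (2 : F) • x by module,
        inv_smul_smul₀ h2]
    rw [e]
    refine Submodule.add_mem_sup (Submodule.smul_mem _ _ (mem_fixer.2 ?_))
      (Submodule.smul_mem _ _ (mem_negSp.2 ?_))
    · rw [map_add, invol_apply hg, add_comm]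
    · rw [map_sub, invol_apply hg, neg_sub]

theorem finrank_eigen (h2 : (2 : F) ≠ 0) {g : orth Q} (hg : g * g = 1) :
    Module.finrank F (fixer g) + negDim g = Module.finrank F V :=
  Submodule.finrank_add_eq_of_isCompl (isCompl_eigen h2 hg)

theorem negSp_nondeg (hQ : (polarBilin Q).Nondegenerate) (h2 : (2 : F) ≠ 0) {g : orth Q}
    (hg : g * g = 1) : negSp g ⊓ perp Q (negSp g) = ⊥ := by
  rw [eq_bot_iff]
  rintro x ⟨hx, hx'⟩
  rw [Submodule.mem_bot]
  refine hQ.1 x fun y => ?_
  obtain ⟨a, ha, b, hb, rfl⟩ := Submodule.mem_sup.1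
    ((isCompl_eigen h2 hg).sup_eq_top.ge (Submodule.mem_top (x := y)))
  rw [polarBilin_apply_apply, polar_add_right, polar_comm (⇑Q) x a, polar_comm (⇑Q) x b,
    fixer_perp_negSp h2 ha hx, mem_perp.1 hx' b hb, add_zero]

/-- The negative of the identity. -/
def negOne (Q : QuadraticForm F V) : orth Q := ⟨LinearEquiv.neg F, fun x => QuadraticMap.map_neg Q x⟩

theorem negOne_apply (x : V) : (negOne Q : V ≃ₗ[F] V) x = -x := rfl

theorem negOne_comm (g : orth Q) : Commute (negOne Q) g :=
  orth_ext fun x => by simp only [orth_mul_apply, negOne_apply, map_neg]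

theorem negOne_mul_self : negOne Q * negOne Q = 1 :=
  orth_ext fun x => by simp only [orth_mul_apply, negOne_apply, neg_neg]; rfl

theorem negSp_negOne_mul (g : orth Q) : negSp (negOne Q * g) = fixer g := by
  ext x
  rw [mem_negSp, mem_fixer, orth_mul_apply, negOne_apply, neg_inj]

theorem fixer_negOne_mul (g : orth Q) : fixer (negOne Q * g) = negSp g := by
  ext x
  rw [mem_negSp, mem_fixer, orth_mul_apply, negOne_apply, neg_eq_iff_eq_neg]

theorem negDim_conj (d g : orth Q) : negDim (d * g * d⁻¹) = negDim g := by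
  have h : negSp (d * g * d⁻¹) = (negSp g).map ((d : V ≃ₗ[F] V) : V →ₗ[F] V) := by
    ext x
    obtain ⟨y, rfl⟩ := (d : V ≃ₗ[F] V).surjective x
    rw [mem_negSp, orth_mul_apply, orth_mul_apply, orth_inv_apply_apply, ← map_neg,
      (d : V ≃ₗ[F] V).injective.eq_iff]
    constructor
    · intro hy
      exact Submodule.mem_map.2 ⟨y, mem_negSp.2 hy, rfl⟩
    · rintro ⟨z, hz, hzy⟩
      rw [← (d : V ≃ₗ[F] V).injective hzy]
      exact mem_negSp.1 hz
  rw [negDim, h, LinearEquiv.finrank_map_eq]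
  rfl

theorem negDim_one (h2 : (2 : F) ≠ 0) : negDim (1 : orth Q) = 0 := by
  have := finrank_eigen h2 (g := (1 : orth Q)) (one_mul 1)
  have h : fixer (1 : orth Q) = ⊤ := Submodule.eq_top_iff'.2 fun x => mem_fixer.2 rfl
  rw [h, finrank_top] at this
  omega

theorem eq_one_of_negDim (h2 : (2 : F) ≠ 0) {g : orth Q} (hg : g * g = 1) (h : negDim g = 0) :
    g = 1 := by
  refine orth_ext fun x => ?_
  have := finrank_eigen h2 hg
  have hf : fixer g = ⊤ := Submodule.eq_top_of_finrank_eq (by omega)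
  exact mem_fixer.1 (hf ▸ Submodule.mem_top (x := x))

theorem eq_negOne_of_negDim {g : orth Q} (h : negDim g = Module.finrank F V) : g = negOne Q :=
  orth_ext fun x => by
    rw [negOne_apply]
    exact mem_negSp.1 ((Submodule.eq_top_of_finrank_eq h : negSp g = ⊤) ▸ Submodule.mem_top (x := x))

/-! ### Products of reflections in orthogonal families -/

/-- The product of the reflections of a family. -/
noncomputable def reflProd (Q : QuadraticForm F V) {n : ℕ} (p : Fin n → V) : orth Q :=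
  (List.ofFn fun i => refl Q (p i)).prod

theorem reflProd_succ {n : ℕ} (p : Fin (n + 1) → V) :
    reflProd Q p = refl Q (p 0) * reflProd Q (p ∘ Fin.succ) := by
  rw [reflProd, List.ofFn_succ, List.prod_cons]; rfl

theorem reflProd_two (u w : V) : reflProd Q ![u, w] = refl Q u * refl Q w := by
  simp [reflProd, List.ofFn_succ]

theorem reflProd_fixed : ∀ {n : ℕ} (p : Fin n → V) {x : V}, (∀ i, polar Q (p i) x = 0) →
    (reflProd Q p : V ≃ₗ[F] V) x = x
  | 0, p, x, _ => by simp [reflProd]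
  | n + 1, p, x, h => by
    rw [reflProd_succ, orth_mul_apply, reflProd_fixed (p ∘ Fin.succ) fun i => h i.succ,
      refl_apply_of_ortho (h 0)]

theorem OFam.reflProd_neg : ∀ {n : ℕ} {p : Fin n → V}, OFam Q p → ∀ i,
    (reflProd Q p : V ≃ₗ[F] V) (p i) = -p i
  | 0, p, _, i => i.elim0
  | n + 1, p, hp, i => by
    rw [reflProd_succ, orth_mul_apply]
    cases i using Fin.cases with
    | zero =>
      rw [reflProd_fixed (p ∘ Fin.succ) fun j => hp.orth j.succ 0 (Fin.succ_ne_zero j),
        refl_apply_self (hp.ne 0)]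
    | succ i =>
      have := OFam.reflProd_neg (hp.comp (Fin.succ_injective n)) i
      rw [Function.comp_apply] at this
      rw [this, map_neg, refl_apply_of_ortho (hp.orth 0 i.succ (Fin.succ_ne_zero i).symm)]

theorem OFam.negSp_reflProd (hQ : (polarBilin Q).Nondegenerate) (h2 : (2 : F) ≠ 0) {n : ℕ}
    {p : Fin n → V} (hp : OFam Q p) :
    negSp (reflProd Q p) = Submodule.span F (Set.range p) := by
  refine le_antisymm (fun x hx => ?_) (Submodule.span_le.2 ?_)
  · obtain ⟨a, ha, b, hb, rfl⟩ := Submodule.mem_sup.1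
      ((isCompl_perp hQ (hp.inf_perp h2)).sup_eq_top.ge (Submodule.mem_top (x := x)))
    have hfa : (reflProd Q p : V ≃ₗ[F] V) a = -a := by
      refine mem_negSp.1 ((Submodule.span_le.2 ?_) ha)
      rintro _ ⟨i, rfl⟩
      exact mem_negSp.2 (hp.reflProd_neg i)
    have hfb := reflProd_fixed p (mem_perp_range.1 hb)
    rw [mem_negSp, map_add, hfa, hfb] at hx
    have hb2 : (2 : F) • b = 0 := by
      calc (2 : F) • b = (-a + b) - -(a + b) := by module
        _ = 0 := by rw [hx, sub_self]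
    rw [(smul_eq_zero.1 hb2).resolve_left h2, add_zero]
    exact ha
  · rintro _ ⟨i, rfl⟩
    exact mem_negSp.2 (hp.reflProd_neg i)

theorem OFam.negDim_reflProd (hQ : (polarBilin Q).Nondegenerate) (h2 : (2 : F) ≠ 0) {n : ℕ}
    {p : Fin n → V} (hp : OFam Q p) : negDim (reflProd Q p) = n := by
  rw [negDim, hp.negSp_reflProd hQ h2, hp.finrank_span h2]

theorem OFam.reflProd_sq (hQ : (polarBilin Q).Nondegenerate) (h2 : (2 : F) ≠ 0) {n : ℕ}
    {p : Fin n → V} (hp : OFam Q p) : reflProd Q p * reflProd Q p = 1 := by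
  refine orth_ext fun x => ?_
  obtain ⟨a, ha, b, hb, rfl⟩ := Submodule.mem_sup.1
    ((isCompl_perp hQ (hp.inf_perp h2)).sup_eq_top.ge (Submodule.mem_top (x := x)))
  rw [← hp.negSp_reflProd hQ h2] at ha
  rw [orth_mul_apply, map_add, map_add, reflProd_fixed p (mem_perp_range.1 hb),
    reflProd_fixed p (mem_perp_range.1 hb), mem_negSp.1 ha, map_neg, mem_negSp.1 ha, neg_neg]
  rfl

variable [Finite V]

theorem card_ne_two (h2 : (2 : F) ≠ 0) : Nat.card F ≠ 2 := fun hc => h2 (by
  have := Fintype.ofFinite F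
  have := Nat.cast_card_eq_zero F
  rw [← Nat.card_eq_fintype_card, hc] at this
  exact_mod_cast this)

theorem OFam.reflProd_mem (hQ : (polarBilin Q).Nondegenerate) (h2 : (2 : F) ≠ 0) {n : ℕ}
    {p : Fin n → V} (hp : OFam Q p) (hn : Even n) (hsq : IsSquare (∏ i, Q (p i))) :
    OrthTensor.reflProd Q p ∈ commutator (H5.orth Q) := by
  have h : (List.ofFn p).map (refl Q) = List.ofFn fun i => refl Q (p i) := List.map_ofFn
  unfold OrthTensor.reflProd
  rw [← h]
  refine (list_prod_mem_commutator_iff hQ (Or.inl (card_ne_two h2)) fun v hv => ?_).2 ⟨?_, ?_⟩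
  · obtain ⟨i, rfl⟩ := List.mem_ofFn.1 hv
    exact hp.ne i
  · rwa [List.length_ofFn]
  · rw [List.map_ofFn, List.prod_ofFn]
    exact hsq

theorem eich_mem_omega (hQ : (polarBilin Q).Nondegenerate) (h2 : (2 : F) ≠ 0) (e a : V) :
    eich Q e a ∈ commutator (orth Q) :=
  eichGroup_le_commutator hQ (Or.inl (card_ne_two h2)) (eich_mem_eichGroup e a)

/-! ### The involution with a one-dimensional fixed space -/

/-- The involution fixing the line of `u` and negating its orthogonal. -/
noncomputable def tvec (Q : QuadraticForm F V) (u : V) : orth Q := negOne Q * refl Q u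

theorem tvec_self {u : V} (hu : Q u ≠ 0) : (tvec Q u : V ≃ₗ[F] V) u = u := by
  rw [tvec, orth_mul_apply, refl_apply_self hu, negOne_apply, neg_neg]

theorem tvec_perp {u x : V} (h : polar Q u x = 0) : (tvec Q u : V ≃ₗ[F] V) x = -x := by
  rw [tvec, orth_mul_apply, refl_apply_of_ortho h, negOne_apply]

theorem tvec_sq (u : V) : tvec Q u * tvec Q u = 1 := by
  rw [tvec, (negOne_comm (refl Q u)).symm.mul_mul_mul_comm, negOne_mul_self, refl_mul_self, one_mul]

theorem negSp_tvec (h2 : (2 : F) ≠ 0) {u : V} (hu : Q u ≠ 0) :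
    negSp (tvec Q u) = perp Q (Submodule.span F {u}) := by
  rw [tvec, negSp_negOne_mul]
  ext x
  rw [mem_perp_span, mem_fixer]
  refine ⟨fun h => ?_, refl_apply_of_ortho⟩
  rw [refl_apply, sub_eq_self, smul_eq_zero] at h
  rcases h with h | h
  · exact (mul_eq_zero.1 h).resolve_left (inv_ne_zero hu)
  · simp [h] at hu

theorem negDim_tvec (hQ : (polarBilin Q).Nondegenerate) (h2 : (2 : F) ≠ 0) {u : V} (hu : Q u ≠ 0) :
    negDim (tvec Q u) + 1 = Module.finrank F V := by
  have := finrank_perp_add hQ (Submodule.span F {u})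
  rw [finrank_span_singleton (fun h => hu (by rw [h, QuadraticMap.map_zero]))] at this
  rwa [negDim, negSp_tvec h2 hu]

theorem tvec_conj (g : orth Q) (u : V) : g * tvec Q u * g⁻¹ = tvec Q ((g : V ≃ₗ[F] V) u) := by
  rw [tvec, tvec, ← refl_conj, ← mul_assoc g, ← (negOne_comm g).eq]
  group

/-- In odd dimension some class of vectors gives such involutions in `Ω`. -/
theorem exists_tvec_mem (hQ : (polarBilin Q).Nondegenerate) (h2 : (2 : F) ≠ 0)
    (hodd : Odd (Module.finrank F V)) :
    ∃ d : F, d ≠ 0 ∧ ∀ u, Q u = d → tvec Q u ∈ commutator (orth Q) := by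
  obtain ⟨m, hm⟩ := hodd
  obtain ⟨p, hp, hq⟩ := exists_oFam_norm hQ h2 (one_ne_zero (α := F)) (2 * m) (by omega)
  obtain ⟨u₀, hu₀, ho⟩ := hp.exists_perp_aniso hQ h2 (by omega)
  refine ⟨Q u₀, hu₀, fun u hu => ?_⟩
  have hmem := hp.reflProd_mem hQ h2 (even_two_mul m)
    (by simp [hq])
  have heq : reflProd Q p = tvec Q u₀ := by
    refine orth_ext fun x => sub_eq_zero.1 ((hp.snoc hu₀ ho).eq_zero hQ h2 (by omega) fun i => ?_)
    rw [polar_sub_right, sub_eq_zero]
    cases i using Fin.lastCases with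
    | last =>
      rw [Fin.snoc_last]
      have e1 := orth_polar (reflProd Q p) u₀ x
      have e2 := orth_polar (tvec Q u₀) u₀ x
      rw [reflProd_fixed p ho] at e1
      rw [tvec_self hu₀] at e2
      exact e1.trans e2.symm
    | cast i =>
      rw [Fin.snoc_castSucc]
      have e1 := orth_polar (reflProd Q p) (p i) x
      have e2 := orth_polar (tvec Q u₀) (p i) x
      rw [hp.reflProd_neg i, polar_neg_left] at e1
      rw [tvec_perp (by rw [polar_comm]; exact ho i), polar_neg_left] at e2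
      exact neg_inj.1 (e1.trans e2.symm)
  obtain ⟨g, -, hg⟩ := exists_reflGroup_map_of_two_ne_zero h2 hu₀ hu.symm
  rw [← hg, ← tvec_conj, ← heq]
  exact Subgroup.Normal.conj_mem inferInstance _ hmem g

end Cfsg.Agent.H19.OrthTensor
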