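import Cfsg.Agent.H19.OrthTensor.Setup
import Cfsg.Agent.H19.OrthTensor.Vectors

/-!
A non-trivial layer gives all root elements, hence all of `Ω`.
-/

set_option autoImplicit false
set_option linter.unusedSectionVars false

namespace Cfsg.Agent.H19.OrthTensor

open QuadraticMap hiding sq
open Cfsg.Agent.H5 Module

variable {F V A B : Type*} [Field F] [Finite F] [AddCommGroup V] [Module F V] [Finite V]
  [FiniteDimensional F V] [AddCommGroup A] [Module F A] [Finite A] [FiniteDimensional F A]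
  [AddCommGroup B] [Module F B] [Finite B] [FiniteDimensional F B]
  {Q : QuadraticForm F V} {QA : QuadraticForm F A} {QB : QuadraticForm F B}
  {pu : A →ₗ[F] B →ₗ[F] V}

/-- The skew map of two vectors. -/
def skew2 (QA : QuadraticForm F A) (p r : A) : A →ₗ[F] A :=
  (polarBilin QA p).smulRight r - (polarBilin QA r).smulRight p

theorem skew2_apply (p r x : A) :
    skew2 QA p r x = polar QA p x • r - polar QA r x • p := rfl

/-- No totally singular plane in dimension four. -/
def NotPlusFour (QA : QuadraticForm F A) : Prop :=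
  finrank F A = 4 → ∀ p r, p ≠ 0 → QA p = 0 → QA r = 0 → polar QA p r = 0 →
    r ∈ Submodule.span F {p}

theorem notPlusFour_of_ne (h : finrank F A ≠ 4) : NotPlusFour QA := fun h4 => absurd h4 h

namespace TO

variable (T : TO Q QA QB pu)
include T

/-- The group contains the two copies of `Ω`. -/
structure Over (M : Subgroup (orth Q)) : Prop where
  right : ∀ k ∈ commutator (orth QB), T.kR k ∈ M
  left : ∀ g ∈ commutator (orth QA), T.kL g ∈ M

theorem Over.swap {M : Subgroup (orth Q)} (H : T.Over M) : T.swap.Over M := ⟨H.left, H.right⟩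

/-- `m` is the layer of `G` at `e`. -/
def IsLayer (e : B) (G : A →ₗ[F] A) (m : orth Q) : Prop :=
  ∀ v, (m : V ≃ₗ[F] V) v = v + pu (G (T.C e v)) e

/-- The layer of `G` at `e` lies in `M`. -/
def Lay (M : Subgroup (orth Q)) (e : B) (G : A →ₗ[F] A) : Prop := ∃ m ∈ M, T.IsLayer e G m

/-- All layers are trivial. -/
def NoLayer (M : Subgroup (orth Q)) : Prop :=
  ∀ e : B, e ≠ 0 → QB e = 0 → ∀ G : A →ₗ[F] A, T.Lay M e G → G = 0

variable {M : Subgroup (orth Q)}

theorem lay_zero (M : Subgroup (orth Q)) (e : B) : T.Lay M e 0 :=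
  ⟨1, one_mem _, fun v => by simp⟩

theorem C_self {e : B} (he : QB e = 0) (x : A) : T.C e (pu x e) = 0 := by
  rw [T.C_pu, polar_self', he, mul_zero, zero_smul]

theorem lay_add {e : B} (he : QB e = 0) {G G' : A →ₗ[F] A} (h : T.Lay M e G) (h' : T.Lay M e G') :
    T.Lay M e (G + G') := by
  obtain ⟨m, hm, hmG⟩ := h
  obtain ⟨m', hm', hmG'⟩ := h'
  refine ⟨m * m', mul_mem hm hm', fun v => ?_⟩
  rw [orth_mul_apply, hmG, hmG', map_add, T.C_self he, add_zero, LinearMap.add_apply, map_add,
    LinearMap.add_apply]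
  abel

theorem lay_neg {e : B} (he : QB e = 0) {G : A →ₗ[F] A} (h : T.Lay M e G) : T.Lay M e (-G) := by
  obtain ⟨m, hm, hmG⟩ := h
  refine ⟨m⁻¹, inv_mem hm, fun v => (m : V ≃ₗ[F] V).injective ?_⟩
  rw [orth_apply_inv_apply, hmG, map_add, T.C_self he, add_zero]
  simp

theorem lay_skew {e : B} (he : QB e = 0) (he0 : e ≠ 0) {G : A →ₗ[F] A} (h : T.Lay M e G) (x y : A) :
    polar QA (G x) y + polar QA x (G y) = 0 := by
  obtain ⟨m, -, hm⟩ := h
  obtain ⟨h, hh⟩ := exists_polar_eq_one (Q := QB) T.ndB he0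
  have hhe : polar QB h e = 1 := by rw [polar_comm]; exact hh
  have e1 := orth_polar m (pu x h) (pu y h)
  rw [hm, hm, T.C_pu, T.C_pu, hhe, one_smul, one_smul, polar_add_left, polar_add_right,
    polar_add_right, T.form, T.form, T.form, T.form, polar_self' QB e, he, hh, hhe] at e1
  linear_combination e1

/-- A skew map of rank two gives a root element. -/
theorem lay_skew2_iff {e : B} (he : QB e = 0) (p r : A) :
    T.Lay M e (skew2 QA p r) ↔ RootIn M (pu p e) (pu r e) := by
  have h1 : Q (pu p e) = 0 := by rw [T.Q_pu, he, mul_zero, mul_zero]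
  have h2 : polar Q (pu p e) (pu r e) = 0 := by rw [T.form, polar_self', he, mul_zero, mul_zero]
  have key : ∀ v, (eich Q (pu p e) (pu r e) : V ≃ₗ[F] V) v = v + pu (skew2 QA p r (T.C e v)) e := by
    intro v
    rw [eich_apply h1 h2, skew2_apply, map_sub, LinearMap.sub_apply, map_smul, map_smul,
      LinearMap.smul_apply, LinearMap.smul_apply, polar_comm (⇑QA) p, polar_comm (⇑QA) r, T.adj,
      T.adj, polar_comm (⇑Q) v, polar_comm (⇑Q) v, T.Q_pu, he]
    simp
    abel
  constructor
  · rintro ⟨m, hm, hmG⟩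
    refine ⟨h1, h2, ?_⟩
    rwa [show eich Q (pu p e) (pu r e) = m from orth_ext fun v => by rw [key, hmG]]
  · exact fun h => ⟨_, h.2.2, key⟩

variable (H : T.Over M)
include H

theorem lay_kL {e : B} {G : A →ₗ[F] A} (h : T.Lay M e G) {g : orth QA}
    (hg : g ∈ commutator (orth QA)) :
    T.Lay M e (((g : A ≃ₗ[F] A) : A →ₗ[F] A) ∘ₗ G ∘ₗ (((g⁻¹ : orth QA) : A ≃ₗ[F] A) : A →ₗ[F] A)) := by
  obtain ⟨m, hm, hmG⟩ := h
  refine ⟨T.kL g * m * (T.kL g)⁻¹,
    mul_mem (mul_mem (H.left g hg) hm) (inv_mem (H.left g hg)), fun v => ?_⟩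
  rw [orth_mul_apply, orth_mul_apply, hmG, map_add, orth_apply_inv_apply, T.kL_pu, ← map_inv,
    T.C_kL]
  rfl

theorem lay_kR {e : B} {G : A →ₗ[F] A} (h : T.Lay M e G) {k : orth QB}
    (hk : k ∈ commutator (orth QB)) : T.Lay M ((k : B ≃ₗ[F] B) e) G := by
  obtain ⟨m, hm, hmG⟩ := h
  refine ⟨T.kR k * m * (T.kR k)⁻¹,
    mul_mem (mul_mem (H.right k hk) hm) (inv_mem (H.right k hk)), fun v => ?_⟩
  obtain ⟨w, rfl⟩ := (T.kR k : V ≃ₗ[F] V).surjective v
  rw [orth_mul_apply, orth_mul_apply, orth_inv_apply_apply, hmG, map_add, T.kR_pu, T.C_kR]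

theorem lay_transport (hB : 3 ≤ finrank F B) {e e' : B} (he : QB e = 0) (he0 : e ≠ 0)
    (he' : QB e' = 0) (he'0 : e' ≠ 0) :
    ∃ c : F, c ≠ 0 ∧ ∀ G : A →ₗ[F] A, T.Lay M e G → T.Lay M e' (c • G) := by
  obtain ⟨f, hf⟩ := exists_hypPair (Q := QB) T.ndB he'0 he'
  obtain ⟨g, hg, t, ht, hge⟩ := exists_pairGroup_map T.ndB hB hf he0 he
  rw [pairGroup_eq_eichGroup T.ndB hB hf] at hg
  refine ⟨t * t, mul_ne_zero ht ht, fun G hG => ?_⟩
  have hgΩ : g ∈ commutator (orth QB) :=
    eichGroup_le_commutator T.ndB (Or.inl (card_ne_two T.two)) hg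
  obtain ⟨m, hm, hmG⟩ := T.lay_kR H hG hgΩ
  refine ⟨m, hm, fun v => ?_⟩
  rw [hmG, hge]
  simp [smul_smul]

/-- Root groups of the first factor fix some element of a non-trivial space of layers. -/
theorem exists_rank_two {e : B} (he : QB e = 0) (he0 : e ≠ 0) {G : A →ₗ[F] A} (hG : T.Lay M e G)
    (hG0 : G ≠ 0) (hA : 3 ≤ finrank F A) {p f : A} (hp : HypPair QA p f) :
    ∃ r ∈ pperp QA p f, r ≠ 0 ∧ T.Lay M e (skew2 QA p r) := by
  have hF : Fintype F := Fintype.ofFinite F
  obtain ⟨ℓ, hℓ⟩ := CharP.exists F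
  have hℓp : ℓ.Prime := (CharP.char_is_prime_or_zero F ℓ).resolve_right fun h => by
    subst h; exact CharP.char_ne_zero_of_finite F 0 rfl
  have : Fact ℓ.Prime := ⟨hℓp⟩
  have : Finite (A →ₗ[F] A) := Finite.of_injective _ DFunLike.coe_injective
  let U : Subgroup (orth QA) :=
    { carrier := {g | ∃ a, polar QA p a = 0 ∧ g = eich QA p a}
      one_mem' := ⟨0, polar_zero_right .., (eich_zero p).symm⟩
      mul_mem' := by
        rintro _ _ ⟨a, ha, rfl⟩ ⟨b, hb, rfl⟩
        exact ⟨a + b, by rw [polar_add_right, ha, hb, add_zero], eich_mul hp.left ha hb⟩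
      inv_mem' := by
        rintro _ ⟨a, ha, rfl⟩
        exact ⟨-a, by rw [polar_neg_right, ha, neg_zero], eich_inv hp.left ha⟩ }
  have hUΩ : ∀ g ∈ U, g ∈ commutator (orth QA) := by
    rintro _ ⟨a, -, rfl⟩
    exact eich_mem_omega T.ndA T.two _ _
  have hU : IsPGroup ℓ U := by
    rintro ⟨_, a, ha, rfl⟩
    refine ⟨1, Subtype.ext ?_⟩
    have hpow : ∀ n : ℕ, eich QA p a ^ n = eich QA p ((n : F) • a) := by
      intro n
      induction n with
      | zero => rw [pow_zero, Nat.cast_zero, zero_smul, eich_zero]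
      | succ n ih =>
        rw [pow_succ, ih, eich_mul hp.left (by rw [polar_smul_right, ha, smul_zero]) ha,
          Nat.cast_succ, add_smul, one_smul]
    simp [hpow, eich_zero]
  let L : AddSubgroup (A →ₗ[F] A) :=
    { carrier := {G | T.Lay M e G}
      zero_mem' := T.lay_zero M e
      add_mem' := fun h h' => T.lay_add he h h'
      neg_mem' := fun h => T.lay_neg he h }
  letI : MulAction U L :=
    { smul := fun g X => ⟨(((g : orth QA) : A ≃ₗ[F] A) : A →ₗ[F] A) ∘ₗ (X : A →ₗ[F] A) ∘ₗ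
        ((((g : orth QA)⁻¹ : orth QA) : A ≃ₗ[F] A) : A →ₗ[F] A), T.lay_kL H X.2 (hUΩ g g.2)⟩
      one_smul := fun X => Subtype.ext (LinearMap.ext fun x => rfl)
      mul_smul := fun g g' X => Subtype.ext (LinearMap.ext fun x => by
        change ((g * g' : U) : orth QA).1 ((X : A →ₗ[F] A) ((((g * g' : U) : orth QA)⁻¹ : orth QA).1 x)) = _
        rw [Subgroup.coe_mul, mul_inv_rev]
        rfl) }
  have hfix0 : (⟨0, T.lay_zero M e⟩ : L) ∈ MulAction.fixedPoints U L := fun g =>
    Subtype.ext (LinearMap.ext fun x => map_zero ((g : orth QA) : A ≃ₗ[F] A))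
  have hdvd : ℓ ∣ Nat.card L := by
    have h1 : addOrderOf (⟨G, hG⟩ : L) = ℓ := by
      refine addOrderOf_eq_prime (Subtype.ext ?_) fun h => hG0 (congrArg Subtype.val h)
      rw [AddSubgroup.coe_nsmul, AddSubgroup.coe_zero, ← Nat.cast_smul_eq_nsmul F, CharP.cast_eq_zero,
        zero_smul]
    rw [← h1]
    exact addOrderOf_dvd_natCard _
  obtain ⟨⟨X, hX⟩, hfix, hne⟩ :=
    hU.exists_fixed_point_of_prime_dvd_card_of_fixed_point L hdvd hfix0
  have hX0 : X ≠ 0 := fun h => hne (Subtype.ext h.symm)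
  -- the commutation with the root group
  have hcomm : ∀ a, polar QA p a = 0 → ∀ x,
      (eich QA p a : A ≃ₗ[F] A) (X x) = X ((eich QA p a : A ≃ₗ[F] A) x) := by
    intro a ha x
    have := congrArg (fun Y : L => (Y : A →ₗ[F] A) ((eich QA p a : A ≃ₗ[F] A) x))
      (hfix ⟨eich QA p a, a, ha, rfl⟩)
    dsimp at this
    rw [← this]
    change _ = (eich QA p a : A ≃ₗ[F] A)
      (X (((eich QA p a)⁻¹ : orth QA).1 ((eich QA p a : A ≃ₗ[F] A) x)))
    rw [orth_inv_apply_apply]
  have hN : ∀ a, polar QA p a = 0 → ∀ x, skew2 QA p a (X x) = X (skew2 QA p a x) := by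
    intro a ha x
    have e1 := hcomm a ha x
    have e2 := hcomm (-a) (by rw [polar_neg_right, ha, neg_zero]) x
    rw [eich_apply hp.left ha, eich_apply hp.left ha] at e1
    rw [eich_apply hp.left (by rw [polar_neg_right, ha, neg_zero]),
      eich_apply hp.left (by rw [polar_neg_right, ha, neg_zero])] at e2
    simp only [polar_neg_left, QuadraticMap.map_neg, map_add, map_sub, map_smul, map_neg, neg_smul,
      smul_neg] at e1 e2
    simp only [skew2_apply, map_sub, map_smul]
    refine smul_right_injective A T.two ?_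
    linear_combination (norm := module) e1 - e2
  have hsk : ∀ x y, polar QA (X x) y = -polar QA x (X y) := fun x y =>
    eq_neg_of_add_eq_zero_left (T.lay_skew he he0 hX x y)
  have hself : ∀ x, polar QA (X x) x = 0 := fun x => by
    have h := hsk x x
    rw [polar_comm (⇑QA) x] at h
    exact (mul_eq_zero.1 (show (2 : F) * polar QA (X x) x = 0 by linear_combination h)).resolve_left
      T.two
  obtain ⟨lam, hlam⟩ : ∃ lam : F, X p = lam • p := by
    have hperp : X p ∈ perp QA (perp QA (Submodule.span F {p})) := mem_perp.2 fun a ha => by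
      have h := hN a (mem_perp_span.1 ha) p
      rw [skew2_apply, skew2_apply, polar_self', hp.left, polar_comm (⇑QA) p (X p), hself,
        polar_comm (⇑QA) a p, mem_perp_span.1 ha] at h
      simpa [hp.ne_zero] using h
    rw [perp_perp T.ndA] at hperp
    obtain ⟨c, hc⟩ := Submodule.mem_span_singleton.1 hperp
    exact ⟨c, hc.symm⟩
  set r := X f with hr
  have hXη : ∀ a ∈ pperp QA p f, X a = (-lam) • a - polar QA a r • p := by
    intro a ha
    obtain ⟨h1, h2⟩ := mem_pperp.1 ha
    have h := hN a h1 f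
    rw [skew2_apply p a f, hp.pair, polar_comm (⇑QA) a f, h2, one_smul, zero_smul, sub_zero] at h
    rw [← h, skew2_apply, polar_comm (⇑QA) p (X f), hsk, hlam, polar_smul_right, polar_comm (⇑QA) f p,
      hp.pair, smul_eq_mul, mul_one, polar_comm (⇑QA) a (X f), polar_comm (⇑QA) (X f) a]
  have hlam0 : lam = 0 := by
    obtain ⟨a, ha, hQa⟩ := exists_anisotropic (hp.inf_perp T.ndA)
      (by have := hp.finrank_pperp T.ndA; omega)
    have h := hself a
    rw [hXη a ha, polar_sub_left, polar_smul_left, polar_smul_left, (mem_pperp.1 ha).1, smul_zero,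
      sub_zero, polar_self', smul_eq_mul] at h
    simpa [T.two, hQa] using h
  have hrmem : r ∈ pperp QA p f := by
    refine mem_pperp.2 ⟨?_, ?_⟩
    · have := hsk p f
      rw [hlam, hlam0, zero_smul, polar_zero_left] at this
      exact neg_eq_zero.1 this.symm
    · rw [polar_comm]; exact hself f
  have hXeq : X = skew2 QA p r := by
    refine LinearMap.ext fun x => ?_
    have hx := hp.decomp x
    have h := hXη _ hx
    rw [hlam0, neg_zero, zero_smul, zero_sub, map_sub, map_sub, map_smul, map_smul, hlam, hlam0,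
      zero_smul, smul_zero, sub_zero, ← hr, polar_sub_left, polar_sub_left, polar_smul_left,
      polar_smul_left, (mem_pperp.1 hrmem).1, (mem_pperp.1 hrmem).2, smul_zero, smul_zero, sub_zero,
      sub_zero, polar_comm (⇑QA) x r] at h
    rw [skew2_apply, sub_eq_iff_eq_add.1 h]
    abel
  refine ⟨r, hrmem, fun h0 => hX0 ?_, hXeq ▸ hX⟩
  rw [hXeq, h0]
  ext x
  simp [skew2_apply]

/-- The vector of the skew map can be taken non-singular. -/
theorem exists_aniso {e : B} (he : QB e = 0) (he0 : e ≠ 0) {G : A →ₗ[F] A} (hG : T.Lay M e G)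
    (hG0 : G ≠ 0) (hA : 3 ≤ finrank F A) (h4 : NotPlusFour QA) {p f : A} (hp : HypPair QA p f) :
    ∃ r ∈ pperp QA p f, QA r ≠ 0 ∧ T.Lay M e (skew2 QA p r) := by
  obtain ⟨r, hr, hr0, hL⟩ := T.exists_rank_two H he he0 hG hG0 hA hp
  by_cases hQr : QA r = 0
  swap
  · exact ⟨r, hr, hQr, hL⟩
  set W := pperp QA p f with hW
  have hWn := hp.inf_perp T.ndA
  have hWd : finrank F W + 2 = finrank F A := hp.finrank_pperp T.ndA
  have hR := restrict_nondegenerate hWn
  have hr0' : (⟨r, hr⟩ : W) ≠ 0 := fun h => hr0 (congrArg Subtype.val h)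
  obtain ⟨r', hr'⟩ := exists_hypPair hR hr0' (show QA.restrict W ⟨r, hr⟩ = 0 from hQr)
  have hW3 : 3 ≤ finrank F W := by
    rcases Nat.lt_or_ge (finrank F W) 3 with hlt | hge
    swap
    · exact hge
    have h2 : 2 ≤ finrank F W := by
      have h' : _ + 2 = finrank F W := hr'.finrank_pperp hR
      omega
    have := h4 (by omega) p r hp.ne_zero hp.left hQr (mem_pperp.1 hr).1
    obtain ⟨c, rfl⟩ := Submodule.mem_span_singleton.1 this
    have h := (mem_pperp.1 hr).2
    rw [polar_smul_right, polar_comm, hp.pair, smul_eq_mul, mul_one] at h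
    exact absurd (by rw [h, zero_smul]) hr0
  obtain ⟨w, hw, hQw⟩ := exists_anisotropic (hr'.inf_perp hR)
    (by have h' : _ + 2 = finrank F W := hr'.finrank_pperp hR; omega)
  obtain ⟨hwr, hwr'⟩ := mem_pperp.1 hw
  have hs : QA (r' : A) = 0 := hr'.right
  have hsw : polar QA (r' : A) (w : A) = 0 := hwr'
  set g := eich QA (r' : A) (w : A) with hg
  have hgp : ∀ y : A, y = p ∨ y = f → (g : A ≃ₗ[F] A) y = y := by
    rintro y (rfl | rfl) <;> refine eich_apply_of_ortho hs hsw ?_ ?_ <;> rw [polar_comm]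
    exacts [(mem_pperp.1 r'.2).1, (mem_pperp.1 w.2).1, (mem_pperp.1 r'.2).2, (mem_pperp.1 w.2).2]
  have hgr : (g : A ≃ₗ[F] A) r = r + (w : A) - QA (w : A) • (r' : A) := by
    have e1 : polar QA (r' : A) r = 1 := by rw [polar_comm]; exact hr'.pair
    have e2 : polar QA (w : A) r = 0 := by rw [polar_comm]; exact hwr
    rw [hg, eich_apply hs hsw, e1, e2]
    simp
  have hLg := T.lay_kL H hL (eich_mem_omega T.ndA T.two (r' : A) (w : A))
  have hconj : ((g : A ≃ₗ[F] A) : A →ₗ[F] A) ∘ₗ skew2 QA p r ∘ₗ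
      (((g⁻¹ : orth QA) : A ≃ₗ[F] A) : A →ₗ[F] A) = skew2 QA p ((g : A ≃ₗ[F] A) r) := by
    refine LinearMap.ext fun x => ?_
    obtain ⟨y, rfl⟩ := (g : A ≃ₗ[F] A).surjective x
    simp only [LinearMap.comp_apply, LinearEquiv.coe_coe, orth_inv_apply_apply, skew2_apply, map_sub,
      map_smul]
    conv_rhs => rw [← hgp p (Or.inl rfl)]
    rw [orth_polar, orth_polar, hgp p (Or.inl rfl)]
  rw [← hg, hconj] at hLg
  have hadd := T.lay_add he hL hLg
  refine ⟨r + (g : A ≃ₗ[F] A) r, add_mem hr ?_, ?_, ?_⟩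
  · rw [hgr]; exact sub_mem (add_mem hr w.2) (W.smul_mem _ r'.2)
  · rw [QuadraticMap.map_add (⇑QA), orth_map, hQr, hgr, polar_sub_right, polar_add_right,
      polar_self', hQr, polar_smul_right]
    have e1 : polar QA r (r' : A) = 1 := hr'.pair
    have e2 : polar QA r (w : A) = 0 := hwr
    rw [e1, e2]
    simpa using hQw
  · convert hadd using 1
    refine LinearMap.ext fun x => ?_
    simp only [LinearMap.add_apply, skew2_apply, polar_add_left, smul_add, add_smul]
    abel

end TO

theorem rootIn_add_smul {M : Subgroup (orth Q)} {e a : V} (h : RootIn M e a) (t : F) :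
    RootIn M e (a + t • e) := by
  refine ⟨h.1, ?_, ?_⟩
  · rw [polar_add_right, polar_smul_right, polar_self', h.1, h.2.1]; simp
  · rw [eich_add_smul h.1 h.2.1]; exact h.2.2

namespace TO

variable (T : TO Q QA QB pu) {M : Subgroup (orth Q)}
include T

/-- The commutator of two rank two layers. -/
theorem root_step {p r s : A} {e e' : B} (he' : QB e' = 0) (hp : QA p = 0) (hps : polar QA p s = 0)
    (hpr : polar QA p r = 0) (h : RootIn M (pu p e) (pu r e)) (hs : T.Lay M e' (skew2 QA p s)) :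
    RootIn M (pu p e) ((polar QA s r * polar QB e' e) • pu p e') := by
  have := he'
  obtain ⟨m, hm, hmG⟩ := hs
  have h1 := RootIn.conj hm h
  have eP : (m : V ≃ₗ[F] V) (pu p e) = pu p e := by
    rw [hmG, T.C_pu, map_smul, skew2_apply, polar_self', hp, polar_comm (⇑QA) s p, hps]
    simp
  have ea : (m : V ≃ₗ[F] V) (pu r e) = pu r e - (polar QA s r * polar QB e' e) • pu p e' := by
    rw [hmG, T.C_pu, map_smul, skew2_apply, hpr, polar_comm (⇑QB) e e']
    simp [smul_smul, mul_comm]
    abel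
  rw [eP, ea] at h1
  simpa using h.sub h1

variable (H : T.Over M)
include H

/-- A layer at one isotropic vector gives the root elements `pu p e`, `pu p η`. -/
theorem root_pp (hA : 3 ≤ finrank F A) (hB : 3 ≤ finrank F B) (h4 : NotPlusFour QA)
    {e₀ : B} (he₀ : QB e₀ = 0) (he₀0 : e₀ ≠ 0) {G : A →ₗ[F] A} (hG : T.Lay M e₀ G) (hG0 : G ≠ 0)
    {p : A} {e η : B} (hp : QA p = 0) (hp0 : p ≠ 0) (he : QB e = 0) (he0 : e ≠ 0)
    (hη : polar QB e η = 0) : RootIn M (pu p e) (pu p η) := by
  obtain ⟨f, hpf⟩ := exists_hypPair (Q := QA) T.ndA hp0 hp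
  obtain ⟨h, hh⟩ := exists_hypPair (Q := QB) T.ndB he0 he
  obtain ⟨c, hc, hct⟩ := T.lay_transport H hB he₀ he₀0 he he0
  obtain ⟨c', hc', hct'⟩ := T.lay_transport H hB he he0 hh.right hh.symm.ne_zero
  obtain ⟨r, hr, hQr, hL⟩ := T.exists_aniso H he he0 (hct G hG) (smul_ne_zero hc hG0) hA h4 hpf
  have hs := hct' _ hL
  have hsk : c' • skew2 QA p r = skew2 QA p (c' • r) := LinearMap.ext fun x => by
    simp [skew2_apply, smul_sub, smul_smul, polar_smul_left, mul_comm]
  rw [hsk] at hs
  have h1 := (T.lay_skew2_iff he p r).1 hL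
  have h2 := T.root_step hh.right hp
    (by rw [polar_smul_right, (mem_pperp.1 hr).1, smul_zero]) (mem_pperp.1 hr).1 h1 hs
  set κ := polar QA (c' • r) r * polar QB h e with hκ
  have hκ0 : κ ≠ 0 := by
    rw [hκ, polar_comm (⇑QB) h e, hh.pair, mul_one, polar_smul_left, polar_self', smul_eq_mul]
    exact mul_ne_zero hc' (mul_ne_zero T.two hQr)
  set a := κ⁻¹ • η with ha
  have hea : polar QB e a = 0 := by rw [ha, polar_smul_right, hη, smul_zero]
  have h3 := (RootIn.conj (H.right _ (eich_mem_omega T.ndB T.two e a)) h2).sub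
    (by rw [T.kR_pu, eich_apply_self he hea]; exact h2)
  rw [T.kR_pu, eich_apply_self he hea] at h3
  have h4' := rootIn_add_smul h3 (κ * (polar QB a h + QB a))
  convert h4' using 1
  have hηa : η = κ • a := by rw [ha, smul_inv_smul₀ hκ0]
  rw [map_smul, T.kR_pu, eich_apply he hea, hh.pair, hηa, map_smul]
  simp only [map_add, map_sub, map_smul, smul_add, smul_sub, smul_smul, mul_one, one_smul]
  module

/-- From the root elements `pu p e`, `pu p η` to the root elements `pu p e`, `pu x e`. -/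
theorem root_xe (hA : 3 ≤ finrank F A) (hB : 3 ≤ finrank F B)
    (hfull : ∀ (p : A) (e η : B), QA p = 0 → p ≠ 0 → QB e = 0 → e ≠ 0 → polar QB e η = 0 →
      RootIn M (pu p e) (pu p η))
    {p : A} {e : B} (hp : QA p = 0) (hp0 : p ≠ 0) (he : QB e = 0) (he0 : e ≠ 0) (x : A) :
    RootIn M (pu p e) (pu x e) := by
  obtain ⟨f, hpf⟩ := exists_hypPair (Q := QA) T.ndA hp0 hp
  obtain ⟨h, hh⟩ := exists_hypPair (Q := QB) T.ndB he0 he
  obtain ⟨η, hη, hQη⟩ := exists_anisotropic (hh.inf_perp T.ndB)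
    (by have := hh.finrank_pperp T.ndB; omega)
  have heη := (mem_pperp.1 hη).1
  have hall : ∀ c : F, RootIn M (pu p e) (c • pu f e) := by
    intro c
    have h1 := hfull p e η hp hp0 he he0 heη
    have h2 : T.swap.Lay M f (skew2 QB e ((c / (2 * QB η)) • η)) :=
      (T.swap.lay_skew2_iff hpf.right e _).2 (hfull f e _ hpf.right hpf.symm.ne_zero he he0
        (by rw [polar_smul_right, heη, smul_zero]))
    have h3 := T.swap.root_step (p := e) (e := p) hpf.right he
      (by rw [polar_smul_right, heη, smul_zero]) heη h1 h2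
    simp only [LinearMap.flip_apply] at h3
    convert h3 using 1
    rw [polar_smul_left, polar_self', smul_eq_mul, polar_comm (⇑QA) f p, hpf.pair, mul_one,
      div_mul_cancel₀ _ (mul_ne_zero T.two hQη)]
  have hperp : ∀ a, polar QA p a = 0 → RootIn M (pu p e) (pu a e) := by
    intro a ha
    have h1 : RootIn M (pu p e) (pu f e) := by simpa using hall 1
    have h2 := (RootIn.conj (H.left _ (eich_mem_omega T.ndA T.two p a)) h1).sub
      (by rw [T.kL_pu, eich_apply_self hp ha]; exact h1)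
    rw [T.kL_pu, eich_apply_self hp ha] at h2
    have h3 := rootIn_add_smul h2 (polar QA a f + QA a)
    convert h3 using 1
    rw [T.kL_pu, eich_apply hp ha, hpf.pair]
    simp only [map_add, map_sub, map_smul, LinearMap.add_apply, LinearMap.sub_apply,
      LinearMap.smul_apply]
    module
  have hx : polar QA p (x - polar QA p x • f) = 0 := by
    rw [polar_sub_right, polar_smul_right, hpf.pair, smul_eq_mul, mul_one, sub_self]
  have := (hperp _ hx).add (hall (polar QA p x))
  simpa using this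

/-- From the root elements along both factors to the root elements `pu p e`, `pu x v` with `x ⊥ p`. -/
theorem root_xv
    (hxe : ∀ (p : A) (e : B) (x : A), QA p = 0 → p ≠ 0 → QB e = 0 → e ≠ 0 →
      RootIn M (pu p e) (pu x e))
    (hpv : ∀ (p : A) (e v : B), QA p = 0 → p ≠ 0 → QB e = 0 → e ≠ 0 → RootIn M (pu p e) (pu p v))
    {p : A} {e : B} (hp : QA p = 0) (hp0 : p ≠ 0) (he : QB e = 0) (he0 : e ≠ 0) (x : A)
    (hx : polar QA p x = 0) (v : B) : RootIn M (pu p e) (pu x v) := by
  obtain ⟨f, hpf⟩ := exists_hypPair (Q := QA) T.ndA hp0 hp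
  obtain ⟨h, hh⟩ := exists_hypPair (Q := QB) T.ndB he0 he
  have key : ∀ y, polar QA p y = 0 → RootIn M (pu p e) (pu y h) := by
    intro y hy
    obtain ⟨m, hm, hmG⟩ := (T.lay_skew2_iff hh.right p y).2 (hxe p h y hp hp0 hh.right hh.symm.ne_zero)
    have h1 := hxe p e f hp hp0 he he0
    have eP : (m : V ≃ₗ[F] V) (pu p e) = pu p e := by
      rw [hmG, T.C_pu, map_smul, skew2_apply, polar_self', hp, polar_comm (⇑QA) y p, hy]
      simp
    have ea : (m : V ≃ₗ[F] V) (pu f e) = pu f e + (pu y h - polar QA y f • pu p h) := by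
      rw [hmG, T.C_pu, hh.pair, one_smul, skew2_apply, hpf.pair]
      simp
    have h2 := RootIn.conj hm h1
    rw [eP, ea] at h2
    have h3 := (h2.sub h1).add (hpv p e (polar QA y f • h) hp hp0 he he0)
    simpa using h3
  have hperp : ∀ η, polar QB e η = 0 → RootIn M (pu p e) (pu x η) := by
    intro η hη
    have h1 := key x hx
    have h2 := (RootIn.conj (H.right _ (eich_mem_omega T.ndB T.two e η)) h1).sub
      (by rw [T.kR_pu, eich_apply_self he hη]; exact h1)
    rw [T.kR_pu, eich_apply_self he hη] at h2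
    have h3 := h2.add (hxe p e ((polar QB η h + QB η) • x) hp hp0 he he0)
    convert h3 using 1
    rw [T.kR_pu, eich_apply he hη, hh.pair]
    simp only [map_add, map_sub, map_smul, LinearMap.smul_apply]
    module
  have hv : polar QB e (v - polar QB e v • h) = 0 := by
    rw [polar_sub_right, polar_smul_right, hh.pair, smul_eq_mul, mul_one, sub_self]
  have := (hperp _ hv).add (key (polar QB e v • x) (by rw [polar_smul_right, hx, smul_zero]))
  simpa using this

/-- A non-trivial layer gives `Ω`. -/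
theorem commutator_le_of_layer (hA : 3 ≤ finrank F A) (hB : 3 ≤ finrank F B) (h4A : NotPlusFour QA)
    (hV : 5 ≤ finrank F V) {e₀ : B} (he₀ : QB e₀ = 0) (he₀0 : e₀ ≠ 0)
    {G : A →ₗ[F] A} (hG : T.Lay M e₀ G) (hG0 : G ≠ 0) : commutator (orth Q) ≤ M := by
  have H' := Over.swap T H
  have h1 : ∀ (p : A) (e η : B), QA p = 0 → p ≠ 0 → QB e = 0 → e ≠ 0 → polar QB e η = 0 →
      RootIn M (pu p e) (pu p η) := fun p e η hp hp0 he he0 hη =>
    T.root_pp H hA hB h4A he₀ he₀0 hG hG0 hp hp0 he he0 hη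
  have hxe : ∀ (p : A) (e : B) (x : A), QA p = 0 → p ≠ 0 → QB e = 0 → e ≠ 0 →
      RootIn M (pu p e) (pu x e) := fun p e x hp hp0 he he0 =>
    T.root_xe H hA hB h1 hp hp0 he he0 x
  have hpv : ∀ (p : A) (e v : B), QA p = 0 → p ≠ 0 → QB e = 0 → e ≠ 0 →
      RootIn M (pu p e) (pu p v) := fun p e v hp hp0 he he0 =>
    T.swap.root_xe H' hB hA (fun e p x he he0 hp hp0 _ => hxe p e x hp hp0 he he0) he he0 hp hp0 v
  obtain ⟨p, hp0, hp⟩ := H5.exists_singular (Q := QA) T.ndA hA
  obtain ⟨f, hpf⟩ := exists_hypPair (Q := QA) T.ndA hp0 hp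
  obtain ⟨e, he0, he⟩ := H5.exists_singular (Q := QB) T.ndB hB
  obtain ⟨h, hh⟩ := exists_hypPair (Q := QB) T.ndB he0 he
  have full : ∀ (p f : A) (e h : B), HypPair QA p f → HypPair QB e h → FullRoot M (pu p e) := by
    intro p f e h hpf hh
    have hp0 := hpf.ne_zero
    have he0 := hh.ne_zero
    have hP : Q (pu p e) = 0 := by rw [T.Q_pu, hh.left, mul_zero, mul_zero]
    refine ⟨hP, ?_⟩
    let W : Submodule F V :=
      { carrier := {w | ∀ c : F, RootIn M (pu p e) (c • w)}
        zero_mem' := fun c => by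
          rw [smul_zero]
          exact ⟨hP, polar_zero_right .., by rw [eich_zero]; exact one_mem _⟩
        add_mem' := fun ha hb c => by rw [smul_add]; exact (ha c).add (hb c)
        smul_mem' := fun d w hw c => by rw [smul_smul]; exact hw (c * d) }
    have hW1 : ∀ x, polar QA p x = 0 → ∀ v, pu x v ∈ W := fun x hx v c => by
      rw [← map_smul]
      exact T.root_xv H hxe hpv hpf.left hp0 hh.left he0 x hx _
    have hW2 : ∀ v, polar QB e v = 0 → ∀ x, pu x v ∈ W := fun v hv x c => by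
      rw [← LinearMap.smul_apply, ← map_smul]
      exact T.swap.root_xv H' (fun e p w he he0 hp hp0 => hpv p e w hp hp0 he he0)
        (fun e p y he he0 hp hp0 => hxe p e y hp hp0 he he0) hh.left he0 hpf.left hp0 v hv _
    have htop : W ⊔ Submodule.span F {pu f h} = ⊤ := by
      rw [eq_top_iff, ← T.span_top, Submodule.span_le]
      rintro _ ⟨x, v, rfl⟩
      have hx : polar QA p (x - polar QA p x • f) = 0 := by
        rw [polar_sub_right, polar_smul_right, hpf.pair, smul_eq_mul, mul_one, sub_self]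
      have hv : polar QB e (v - polar QB e v • h) = 0 := by
        rw [polar_sub_right, polar_smul_right, hh.pair, smul_eq_mul, mul_one, sub_self]
      have e1 : pu x v = (pu (x - polar QA p x • f) v + pu (polar QA p x • f) (v - polar QB e v • h)) +
          (polar QA p x * polar QB e v) • pu f h := by
        simp only [map_sub, map_smul, LinearMap.sub_apply, LinearMap.smul_apply, smul_sub, smul_smul]
        module
      rw [SetLike.mem_coe, e1]
      exact Submodule.add_mem_sup (add_mem (hW1 _ hx v) (hW2 _ hv _))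
        (Submodule.smul_mem _ _ (Submodule.mem_span_singleton_self _))
    intro a ha
    obtain ⟨w, hw, z, hz, rfl⟩ := Submodule.mem_sup.1 (htop.ge (Submodule.mem_top (x := a)))
    obtain ⟨c, rfl⟩ := Submodule.mem_span_singleton.1 hz
    have hw1 := hw 1
    rw [one_smul] at hw1
    rw [polar_add_right, hw1.2.1, zero_add, polar_smul_right, T.form, hpf.pair, hh.pair, mul_one,
      smul_eq_mul, mul_one] at ha
    rw [ha, zero_smul, add_zero]
    exact hw1.2.2
  exact commutator_le_of_fullRoot T.ndV hV (full p f e h hpf hh) (full f p h e hpf.symm hh.symm)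
    (by rw [T.form, hpf.pair, hh.pair, mul_one]; exact one_ne_zero)

end TO

end Cfsg.Agent.H19.OrthTensor
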