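import Cfsg.Agent.H19.OrthTensor.Generate
import Cfsg.Agent.H19.OrthTensor.Comm

/-!
With trivial layers, an element mapping a layer `A ⊗ e` to a layer is a pure tensor.
-/

set_option autoImplicit false
set_option linter.unusedSectionVars false

namespace Cfsg.Agent.H19.OrthTensor

open QuadraticMap hiding sq
open Cfsg.Agent.H5 Module

variable {F V A B : Type*} [Field F] [Finite F] [AddCommGroup V] [Module F V] [Finite V]
  [FiniteDimensional F V] [AddCommGroup A] [Module F A] [Finite A] [FiniteDimensional F A]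
  [AddCommGroup B] [Module F B] [Finite B] [FiniteDimensional F B]
  {Q : QuadraticForm F V} {QA : QuadraticForm F A} {QB : QuadraticForm F B}
  {pu : A →ₗ[F] B →ₗ[F] V}

/-- The element is a tensor product of two maps. -/
def IsPureT (pu : A →ₗ[F] B →ₗ[F] V) (m : orth Q) : Prop :=
  ∃ (G : A →ₗ[F] A) (K : B →ₗ[F] B), ∀ x u, (m : V ≃ₗ[F] V) (pu x u) = pu (G x) (K u)

/-! ### Singular vectors in a non-degenerate subspace -/

theorem exists_triple (h2 : (2 : F) ≠ 0) {W : Submodule F B} (h : W ⊓ perp QB W = ⊥)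
    (hd : 3 ≤ finrank F W) {ε : B} (hε : ε ∈ W) (hε0 : ε ≠ 0) (hεs : QB ε = 0) :
    ∃ ε₂ a, ε₂ ∈ W ∧ a ∈ W ∧ HypPair QB ε ε₂ ∧ polar QB ε a = 0 ∧ polar QB ε₂ a = 0 ∧ QB a ≠ 0 := by
  have hR := restrict_nondegenerate h
  obtain ⟨f, hf⟩ := exists_hypPair hR (e := (⟨ε, hε⟩ : W)) (fun h0 => hε0 (congrArg Subtype.val h0))
    (show QB.restrict W ⟨ε, hε⟩ = 0 from hεs)
  obtain ⟨a, ha, hQa⟩ := exists_anisotropic (hf.inf_perp hR)
    (by have h' : _ + 2 = finrank F W := hf.finrank_pperp hR; omega)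
  exact ⟨f, a, f.2, a.2, ⟨hεs, hf.right, hf.pair⟩, (mem_pperp.1 ha).1, (mem_pperp.1 ha).2, hQa⟩

theorem le_span_singular {W : Submodule F B} (h : W ⊓ perp QB W = ⊥) (hd : 3 ≤ finrank F W) :
    W ≤ Submodule.span F {ε : B | ε ∈ W ∧ ε ≠ 0 ∧ QB ε = 0} := by
  have hR := restrict_nondegenerate h
  obtain ⟨e, he0, he⟩ := H5.exists_singular hR hd
  obtain ⟨f, hf⟩ := exists_hypPair hR he0 he
  set S := Submodule.span F {ε : B | ε ∈ W ∧ ε ≠ 0 ∧ QB ε = 0} with hS
  have hmem : ∀ x : W, QB.restrict W x = 0 → (x : B) ∈ S := fun x hx => by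
    by_cases h0 : x = 0
    · subst h0; exact S.zero_mem
    · exact Submodule.subset_span ⟨x.2, fun h1 => h0 (Subtype.ext h1), hx⟩
  intro η hη
  have hw := hf.decomp ⟨η, hη⟩
  set w := (⟨η, hη⟩ : W) - polar (QB.restrict W) f ⟨η, hη⟩ • e - polar (QB.restrict W) e ⟨η, hη⟩ • f
  have h1 := hmem _ (hf.singular_lift hw).1
  have h2 := hmem e he
  have h3 := hmem f hf.right
  have hwS : (w : B) ∈ S := by
    have := sub_mem (sub_mem h1 h2) (S.smul_mem (-(QB.restrict W w)) h3)
    convert this using 1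
    push_cast
    module
  have e1 : η = (w : B) + polar (QB.restrict W) f ⟨η, hη⟩ • (e : B) +
      polar (QB.restrict W) e ⟨η, hη⟩ • (f : B) := by
    change η = (η - _ • (e : B) - _ • (f : B)) + _ + _
    abel
  rw [e1]
  exact add_mem (add_mem hwS (S.smul_mem _ h2)) (S.smul_mem _ h3)

namespace TO

variable (T : TO Q QA QB pu)
include T

/-- An element of the unipotent radical attached to a singular vector. -/
structure El (e : B) (K : A →ₗ[F] V) (K' : V →ₗ[F] A) (G : A →ₗ[F] A) (m : orth Q) : Prop where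
  adj : ∀ v x, polar QA (K' v) x = polar Q v (K x)
  perp : ∀ x, T.C e (K x) = 0
  act : ∀ v, (m : V ≃ₗ[F] V) v = v + K (T.C e v) - pu (K' v) e + pu (G (T.C e v)) e

/-- The middle part of an element of `M` in the unipotent radical. -/
def Memb (M : Subgroup (orth Q)) (e : B) (K : A →ₗ[F] V) : Prop :=
  ∃ K' G, ∃ m ∈ M, T.El e K K' G m

/-- The symmetry relation between two middle parts. -/
def Rel (Q : QuadraticForm F V) (X Y : A →ₗ[F] V) : Prop :=
  ∀ x y, polar Q (X x) (Y y) = polar Q (X y) (Y x)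

variable {M : Subgroup (orth Q)}

theorem el_left_e {e : B} {K : A →ₗ[F] V} {K' : V →ₗ[F] A} {G : A →ₗ[F] A} {m : orth Q}
    (h : T.El e K K' G m) (y : A) : K' (pu y e) = 0 :=
  T.extA fun x => by
    rw [h.adj, polar_comm, ← T.adj, h.perp, polar_zero_left, polar_zero_left]

theorem el_mul_apply {e : B} (he : QB e = 0) {K₁ K₂ : A →ₗ[F] V} {K₁' K₂' : V →ₗ[F] A}
    {G₁ G₂ : A →ₗ[F] A} {m₁ m₂ : orth Q} (h₁ : T.El e K₁ K₁' G₁ m₁) (h₂ : T.El e K₂ K₂' G₂ m₂) (v : V) :
    ((m₁ * m₂ : orth Q) : V ≃ₗ[F] V) v =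
      v + (K₁ (T.C e v) + K₂ (T.C e v)) - pu (K₁' v + K₂' v) e +
        pu (G₁ (T.C e v) + G₂ (T.C e v) - K₁' (K₂ (T.C e v))) e := by
  have hC : T.C e ((m₂ : V ≃ₗ[F] V) v) = T.C e v := by
    rw [h₂.act, map_add, map_sub, map_add, h₂.perp, T.C_self he, T.C_self he]
    abel
  have hK : K₁' ((m₂ : V ≃ₗ[F] V) v) = K₁' v + K₁' (K₂ (T.C e v)) := by
    rw [h₂.act, map_add, map_sub, map_add, T.el_left_e h₁, T.el_left_e h₁]
    abel
  rw [orth_mul_apply, h₁.act, hC, hK, h₂.act]
  simp only [map_add, map_sub, LinearMap.add_apply, LinearMap.sub_apply]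
  abel

theorem C_el_mul {e : B} (he : QB e = 0) {K₁ K₂ : A →ₗ[F] V} {K₁' K₂' : V →ₗ[F] A}
    {G₁ G₂ : A →ₗ[F] A} {m₁ m₂ : orth Q} (h₁ : T.El e K₁ K₁' G₁ m₁) (h₂ : T.El e K₂ K₂' G₂ m₂) (v : V) :
    T.C e (((m₁ * m₂ : orth Q) : V ≃ₗ[F] V) v) = T.C e v := by
  rw [T.el_mul_apply he h₁ h₂, map_add, map_sub, map_add, map_add, h₁.perp, h₂.perp, T.C_self he,
    T.C_self he]
  abel

theorem rel_of_memb (hgood : T.NoLayer M) {e : B} (he : QB e = 0) (he0 : e ≠ 0) {X Y : A →ₗ[F] V}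
    (hX : T.Memb M e X) (hY : T.Memb M e Y) : Rel Q X Y := by
  obtain ⟨X', G₁, m₁, hm₁, h₁⟩ := hX
  obtain ⟨Y', G₂, m₂, hm₂, h₂⟩ := hY
  have hD := hgood e he0 he (Y'.comp X - X'.comp Y)
    ⟨m₁ * m₂ * (m₂ * m₁)⁻¹, mul_mem (mul_mem hm₁ hm₂) (inv_mem (mul_mem hm₂ hm₁)), fun w => by
      obtain ⟨v, rfl⟩ := ((m₂ * m₁ : orth Q) : V ≃ₗ[F] V).surjective w
      rw [orth_mul_apply (m₁ * m₂), orth_inv_apply_apply, T.C_el_mul he h₂ h₁, T.el_mul_apply he h₁ h₂,
        T.el_mul_apply he h₂ h₁]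
      simp only [LinearMap.sub_apply, LinearMap.comp_apply, map_add, map_sub, LinearMap.add_apply]
      abel⟩
  intro x y
  have h := congrArg (fun f => polar QA f y) (LinearMap.congr_fun hD x)
  simp only [LinearMap.sub_apply, LinearMap.comp_apply, LinearMap.zero_apply, polar_sub_left,
    polar_zero_left, sub_eq_zero] at h
  rw [h₂.adj, h₁.adj] at h
  rw [h, polar_comm]

variable (H : T.Over M)
include H

/-- Pure root elements are in the unipotent radical. -/
theorem memb_root {e η : B} (he : QB e = 0) (hη : polar QB e η = 0) :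
    T.Memb M e (pu.flip η) := by
  refine ⟨T.C η, (-QB η) • LinearMap.id, T.kR (eich QB e η),
    H.right _ (eich_mem_omega T.ndB T.two e η), ⟨fun v x => ?_, fun x => ?_, fun v => ?_⟩⟩
  · rw [LinearMap.flip_apply, T.adj]
  · rw [LinearMap.flip_apply, T.C_pu, polar_comm, hη, zero_smul]
  · rw [T.kR_eich_apply he hη, LinearMap.flip_apply, LinearMap.smul_apply, LinearMap.id_apply,
      map_smul, LinearMap.smul_apply]
    module

theorem memb_kR {e : B} {X : A →ₗ[F] V} (h : T.Memb M e X) {k : orth QB}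
    (hk : k ∈ commutator (orth QB)) (hke : (k : B ≃ₗ[F] B) e = e) :
    T.Memb M e (((T.kR k : V ≃ₗ[F] V) : V →ₗ[F] V).comp X) := by
  obtain ⟨X', G, m, hm, hel⟩ := h
  have hC : ∀ v, T.C e ((T.kR k : V ≃ₗ[F] V) v) = T.C e v := fun v => by
    conv_lhs => rw [← hke]
    exact T.C_kR k e v
  refine ⟨X'.comp (((T.kR k)⁻¹ : orth Q) : V ≃ₗ[F] V).toLinearMap, G, T.kR k * m * (T.kR k)⁻¹,
    mul_mem (mul_mem (H.right k hk) hm) (inv_mem (H.right k hk)), ⟨fun v x => ?_, fun x => ?_, fun v => ?_⟩⟩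
  · rw [LinearMap.comp_apply, hel.adj, LinearEquiv.coe_coe, ← orth_polar (T.kR k),
      orth_apply_inv_apply]
    rfl
  · rw [LinearMap.comp_apply, LinearEquiv.coe_coe, hC, hel.perp]
  · obtain ⟨w, rfl⟩ := (T.kR k : V ≃ₗ[F] V).surjective v
    rw [orth_mul_apply, orth_mul_apply, orth_inv_apply_apply, hel.act, hC]
    simp only [map_add, map_sub, T.kR_pu, hke, LinearMap.comp_apply, LinearEquiv.coe_coe,
      orth_inv_apply_apply]

theorem memb_kL {e : B} {X : A →ₗ[F] V} (h : T.Memb M e X) {g : orth QA}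
    (hg : g ∈ commutator (orth QA)) :
    T.Memb M e (((T.kL g : V ≃ₗ[F] V) : V →ₗ[F] V).comp
      (X.comp (((g⁻¹ : orth QA) : A ≃ₗ[F] A) : A →ₗ[F] A))) := by
  obtain ⟨X', G, m, hm, hel⟩ := h
  refine ⟨((g : A ≃ₗ[F] A) : A →ₗ[F] A).comp (X'.comp (((T.kL g)⁻¹ : orth Q) : V ≃ₗ[F] V).toLinearMap),
    cj g G, T.kL g * m * (T.kL g)⁻¹,
    mul_mem (mul_mem (H.left g hg) hm) (inv_mem (H.left g hg)), ⟨fun v x => ?_, fun x => ?_, fun v => ?_⟩⟩
  · obtain ⟨y, rfl⟩ := (g : A ≃ₗ[F] A).surjective x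
    simp only [LinearMap.comp_apply, LinearEquiv.coe_coe, orth_inv_apply_apply, orth_polar g, hel.adj]
    rw [← orth_polar (T.kL g), orth_apply_inv_apply]
  · simp only [LinearMap.comp_apply, LinearEquiv.coe_coe, T.C_kL, hel.perp, map_zero]
  · obtain ⟨w, rfl⟩ := (T.kL g : V ≃ₗ[F] V).surjective v
    rw [orth_mul_apply, orth_mul_apply, orth_inv_apply_apply, hel.act, T.C_kL, cj_apply]
    simp only [map_add, map_sub, T.kL_pu, LinearMap.comp_apply, LinearEquiv.coe_coe,
      orth_inv_apply_apply]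

/-- The middle part of an element of the unipotent radical comes from the second factor. -/
theorem el_std (hgood : T.NoLayer M) (hA : 3 ≤ finrank F A) (hB : 5 ≤ finrank F B)
    (hq : finrank F A = 3 → Nat.card F ≠ 3) {e : B} (he : QB e = 0) (he0 : e ≠ 0) {X : A →ₗ[F] V}
    (hX : T.Memb M e X) {η : B} (hη : polar QB e η = 0) : ∃ c : F, ∀ x, T.C η (X x) = c • x := by
  obtain ⟨h, hh⟩ := exists_hypPair (Q := QB) T.ndB he0 he
  set S := Submodule.span F {Y : A →ₗ[F] V | T.Memb M e Y} with hSdef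
  have hXS : X ∈ S := Submodule.subset_span hX
  have hrel : ∀ Y ∈ S, ∀ Z ∈ S, Rel Q Y Z := by
    intro Y hY Z hZ
    induction hY, hZ using Submodule.span_induction₂ with
    | mem_mem Y Z hY hZ => exact T.rel_of_memb hgood he he0 hY hZ
    | zero_left => exact fun x y => by simp
    | zero_right => exact fun x y => by simp
    | add_left _ _ _ _ _ _ h1 h2 => exact fun x y => by simp [polar_add_left, h1 x y, h2 x y]
    | add_right _ _ _ _ _ _ h1 h2 => exact fun x y => by simp [polar_add_right, h1 x y, h2 x y]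
    | smul_left _ _ _ _ _ h => exact fun x y => by simp [polar_smul_left, h x y]
    | smul_right _ _ _ _ _ h => exact fun x y => by simp [polar_smul_right, h x y]
  have hSR : ∀ k ∈ commutator (orth QB), (k : B ≃ₗ[F] B) e = e → ∀ Y ∈ S,
      ((T.kR k : V ≃ₗ[F] V) : V →ₗ[F] V).comp Y ∈ S := by
    intro k hk hke Y hY
    induction hY using Submodule.span_induction with
    | mem Y hY => exact Submodule.subset_span (T.memb_kR H hY hk hke)
    | zero => rw [LinearMap.comp_zero]; exact S.zero_mem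
    | add a b _ _ ha hb => rw [LinearMap.comp_add]; exact S.add_mem ha hb
    | smul c a _ ha => rw [LinearMap.comp_smul]; exact S.smul_mem c ha
  have hSL : ∀ g ∈ commutator (orth QA), ∀ Y ∈ S,
      ((T.kL g : V ≃ₗ[F] V) : V →ₗ[F] V).comp
        (Y.comp (((g⁻¹ : orth QA) : A ≃ₗ[F] A) : A →ₗ[F] A)) ∈ S := by
    intro g hg Y hY
    induction hY using Submodule.span_induction with
    | mem Y hY => exact Submodule.subset_span (T.memb_kL H hY hg)
    | zero => rw [LinearMap.zero_comp, LinearMap.comp_zero]; exact S.zero_mem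
    | add a b _ _ ha hb => rw [LinearMap.add_comp, LinearMap.comp_add]; exact S.add_mem ha hb
    | smul c a _ ha => rw [LinearMap.smul_comp, LinearMap.comp_smul]; exact S.smul_mem c ha
  have hsym : ∀ ζ, polar QB e ζ = 0 → ∀ x y,
      polar QA (T.C ζ (X x)) y = polar QA x (T.C ζ (X y)) := by
    intro ζ hζ x y
    have := hrel X hXS _ (Submodule.subset_span (T.memb_root H he hζ)) x y
    rw [LinearMap.flip_apply, LinearMap.flip_apply, ← T.adj, ← T.adj] at this
    rw [this, polar_comm]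
  let W : Submodule F B :=
    { carrier := {ζ | ∃ c : F, ∀ x, T.C ζ (X x) = c • x}
      zero_mem' := ⟨0, fun x => by simp⟩
      add_mem' := by
        rintro a b ⟨c, hc⟩ ⟨d, hd⟩
        exact ⟨c + d, fun x => by rw [map_add, LinearMap.add_apply, hc, hd, add_smul]⟩
      smul_mem' := by
        rintro s a ⟨c, hc⟩
        exact ⟨s * c, fun x => by rw [map_smul, LinearMap.smul_apply, hc, smul_smul]⟩ }
  have heW : e ∈ W := ⟨0, fun x => by
    obtain ⟨_, _, _, _, hel⟩ := hX
    rw [hel.perp, zero_smul]⟩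
  have hsing : ∀ ε, ε ∈ pperp QB e h → ε ≠ 0 → QB ε = 0 → ε ∈ W := by
    intro ε hε hε0 hεs
    obtain ⟨ε₂, a, hε₂, ha, hp, hεa, hε₂a, hQa⟩ := exists_triple (QB := QB) T.two (hh.inf_perp T.ndB)
      (by have := hh.finrank_pperp T.ndB; omega) hε hε0 hεs
    obtain ⟨heε, -⟩ := mem_pperp.1 hε
    obtain ⟨hea, -⟩ := mem_pperp.1 ha
    obtain ⟨heε₂, -⟩ := mem_pperp.1 hε₂
    have hu := eich_mem_omega T.ndB T.two ε a
    have hue : (eich QB ε a : B ≃ₗ[F] B) e = e := eich_apply_of_ortho hεs hεa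
      (by rw [polar_comm]; exact heε) (by rw [polar_comm]; exact hea)
    have hk := eich_mem_omega T.ndB T.two ε₂ a
    have hke : (eich QB ε₂ a : B ≃ₗ[F] B) e = e := eich_apply_of_ortho hp.right hε₂a
      (by rw [polar_comm]; exact heε₂) (by rw [polar_comm]; exact hea)
    set J : Module.End F A := (T.C ε).comp X with hJ
    obtain ⟨Z, hZS, hZ⟩ : ∃ Z ∈ S, ∀ x, Z x = (-(2 * QB a)) • pu (J x) ε := by
      have hS1 := S.sub_mem (hSR _ hu hue _ hXS) hXS
      refine ⟨_, S.sub_mem (hSR _ hu hue _ hS1) hS1, fun x => ?_⟩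
      simp only [hJ, LinearMap.sub_apply, LinearMap.comp_apply, LinearEquiv.coe_coe,
        T.kR_eich_apply hεs hεa]
      simp only [map_add, map_sub, map_smul, T.C_pu, polar_self', hεs, mul_zero, zero_smul, smul_zero,
        polar_comm (⇑QB) a ε, hεa, LinearMap.add_apply, LinearMap.sub_apply, LinearMap.smul_apply,
        LinearMap.zero_apply, map_zero, add_zero, sub_zero]
      module
    have hkε : (eich QB ε₂ a : B ≃ₗ[F] B) ε = ε + a - QB a • ε₂ := by
      rw [eich_apply hp.right hε₂a, polar_comm (⇑QB) ε₂ ε, hp.pair, polar_comm (⇑QB) a ε, hεa]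
      simp
    obtain ⟨c, hc⟩ := scalar_of_commuting (QA := QA) T.two T.ndA hA hq J
      (fun x y => hsym ε heε x y) fun g hg => by
        have hZ2 := hSL g hg _ (hSR _ hk hke _ hZS)
        refine LinearMap.ext fun x => T.extA fun y => ?_
        obtain ⟨x', hx'⟩ := (g : A ≃ₗ[F] A).surjective x
        have hrel' := hrel Z hZS _ hZ2 x y
        obtain ⟨y', hy'⟩ := (g : A ≃ₗ[F] A).surjective y
        simp only [LinearMap.comp_apply, LinearEquiv.coe_coe, ← hx', ← hy', orth_inv_apply_apply, hZ,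
          map_smul, T.kR_pu, T.kL_pu, polar_smul_left, polar_smul_right, T.form, hkε] at hrel'
        have hne : -(2 * QB a) * (-(2 * QB a) * polar QB ε (ε + a - QB a • ε₂)) ≠ 0 := by
          rw [polar_sub_right, polar_add_right, polar_smul_right, polar_self', hεs, hεa, hp.pair]
          simp [T.two, hQa]
        have hrel2 : polar QA (J ((g : A ≃ₗ[F] A) x')) ((g : A ≃ₗ[F] A) (J y')) =
            polar QA (J ((g : A ≃ₗ[F] A) y')) ((g : A ≃ₗ[F] A) (J x')) := by
          refine mul_left_cancel₀ hne ?_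
          simp only [smul_eq_mul] at hrel'
          linear_combination hrel'
        have hJs := fun x y => hsym ε heε x y
        change polar QA (J (cj g J x)) y = polar QA (cj g J (J x)) y
        rw [show polar QA (J (cj g J x)) y = polar QA (cj g J x) (J y) from hJs _ _,
          cj_symm hJs (J x) y, ← hx', ← hy', cj_apply, cj_apply,
          polar_comm (⇑QA) ((g : A ≃ₗ[F] A) (J x')), ← hrel2]
    exact ⟨c, hc⟩
  have hle : pperp QB e h ≤ W := by
    refine (le_span_singular (hh.inf_perp T.ndB) (by have := hh.finrank_pperp T.ndB; omega)).trans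
      (Submodule.span_le.2 ?_)
    rintro ε ⟨h1, h2, h3⟩
    exact hsing ε h1 h2 h3
  have := W.add_mem (hle (hh.decomp η)) (W.smul_mem (polar QB h η) heW)
  rwa [hη, zero_smul, sub_zero, sub_add_cancel] at this

/-- A unipotent element fixing a layer pointwise acts by scalars. -/
theorem unip_scalar (hgood : T.NoLayer M) (hA : 3 ≤ finrank F A) (hB : 5 ≤ finrank F B)
    (hq : finrank F A = 3 → Nat.card F ≠ 3) {e h : B} (hh : HypPair QB e h) {m : orth Q} (hm : m ∈ M)
    (hfix : ∀ x, (m : V ≃ₗ[F] V) (pu x e) = pu x e)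
    (hζ : ∀ ζ, polar QB e ζ = 0 → ∀ x, (m : V ≃ₗ[F] V) (pu x ζ) - pu x ζ =
      pu (T.C h ((m : V ≃ₗ[F] V) (pu x ζ) - pu x ζ)) e)
    {ζ : B} (hζe : polar QB e ζ = 0) :
    ∃ c : F, ∀ x, T.C h ((m : V ≃ₗ[F] V) (pu x ζ) - pu x ζ) = c • x := by
  have hhe : polar QB h e = 1 := by rw [polar_comm]; exact hh.pair
  have he := hh.left
  let G : A →ₗ[F] A := (T.C h).comp (((m : V ≃ₗ[F] V) : V →ₗ[F] V).comp (pu.flip h))
  let K : A →ₗ[F] V := ((m : V ≃ₗ[F] V) : V →ₗ[F] V).comp (pu.flip h) - pu.flip h - (pu.flip e).comp G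
  let mi : V →ₗ[F] V := (((m⁻¹ : orth Q) : V ≃ₗ[F] V) : V →ₗ[F] V)
  let K' : V →ₗ[F] A := (T.C h).comp mi - T.C h - (T.C h).comp (mi.comp ((pu.flip h).comp (T.C e)))
  have hadj : ∀ v x, polar QA (K' v) x = polar Q v (K x) := by
    intro v x
    simp only [K', K, G, mi, LinearMap.sub_apply, LinearMap.comp_apply, LinearEquiv.coe_coe,
      LinearMap.flip_apply, polar_sub_left, polar_sub_right, T.adj]
    rw [← orth_polar m, orth_apply_inv_apply, ← orth_polar m (((m⁻¹ : orth Q) : V ≃ₗ[F] V) _),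
      orth_apply_inv_apply, polar_comm (⇑Q) (pu _ h), ← T.adj h ((m : V ≃ₗ[F] V) (pu x h)),
      ← T.adj e v, polar_comm (⇑QA) (T.C h _)]
  have hCe : ∀ x, T.C e ((m : V ≃ₗ[F] V) (pu x h)) = x := fun x => T.extA fun y => by
    rw [T.adj]
    conv_lhs => rw [← hfix y]
    rw [orth_polar, T.form, hhe, mul_one]
  have hperp : ∀ x, T.C e (K x) = 0 := fun x => by
    simp only [K, G, LinearMap.sub_apply, LinearMap.comp_apply, LinearEquiv.coe_coe,
      LinearMap.flip_apply, map_sub, hCe, T.C_pu, hhe, polar_self', he, mul_zero, zero_smul, one_smul]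
    abel
  have hK'h : ∀ x, K' (pu x h) = 0 := fun x => T.extA fun y => by
    rw [hadj, polar_comm, ← T.adj]
    simp only [K, G, LinearMap.sub_apply, LinearMap.comp_apply, LinearEquiv.coe_coe,
      LinearMap.flip_apply, map_sub, T.C_pu, hh.pair, polar_self', hh.right, mul_zero, zero_smul,
      one_smul, sub_zero, sub_self, polar_zero_left]
  have hK'ζ : ∀ ζ, polar QB e ζ = 0 → ∀ x,
      K' (pu x ζ) = -T.C h ((m : V ≃ₗ[F] V) (pu x ζ) - pu x ζ) := by
    intro ζ hζ' x
    set D := T.C h ((m : V ≃ₗ[F] V) (pu x ζ) - pu x ζ) with hD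
    have hm' : ((m⁻¹ : orth Q) : V ≃ₗ[F] V) (pu x ζ) = pu x ζ - pu D e := by
      refine (m : V ≃ₗ[F] V).injective ?_
      rw [orth_apply_inv_apply, map_sub, hfix, hD, ← hζ ζ hζ' x]
      abel
    simp only [K', mi, LinearMap.sub_apply, LinearMap.comp_apply, LinearEquiv.coe_coe,
      LinearMap.flip_apply]
    rw [hm', T.C_pu e x ζ, polar_comm, hζ']
    simp [map_sub, T.C_pu, hh.pair]
  have hel : T.El e K K' G m := by
    refine ⟨hadj, hperp, fun v => ?_⟩
    have key := T.ext_pu (f := ((m : V ≃ₗ[F] V) : V →ₗ[F] V))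
      (g := LinearMap.id + K.comp (T.C e) - (pu.flip e).comp K' + (pu.flip e).comp (G.comp (T.C e)))
      fun x u => by
        obtain ⟨ζ, hζ', hu⟩ : ∃ ζ, polar QB e ζ = 0 ∧ u = ζ + polar QB e u • h :=
          ⟨u - polar QB e u • h, by rw [polar_sub_right, polar_smul_right, hh.pair, smul_eq_mul, mul_one,
            sub_self], by abel⟩
        generalize polar QB e u = β at hu
        subst hu
        simp only [LinearEquiv.coe_coe, LinearMap.add_apply, LinearMap.sub_apply, LinearMap.id_apply,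
          LinearMap.comp_apply, LinearMap.flip_apply, map_add, map_smul, hK'h, hK'ζ ζ hζ', T.C_pu,
          polar_comm (⇑QB) ζ e, hζ', hhe, zero_smul, one_smul, zero_add, smul_zero, add_zero, map_neg,
          LinearMap.neg_apply, map_zero]
        rw [← hζ ζ hζ' x]
        simp only [K, G, LinearMap.sub_apply, LinearMap.comp_apply, LinearEquiv.coe_coe,
          LinearMap.flip_apply]
        module
    simpa using LinearMap.congr_fun key v
  obtain ⟨c, hc⟩ := T.el_std H hgood hA hB hq he hh.ne_zero ⟨K', G, m, hm, hel⟩ hζe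
  refine ⟨-c, fun y => T.extA fun x => ?_⟩
  have h1 := hadj (pu y ζ) x
  rw [hK'ζ ζ hζe, polar_comm (⇑Q), ← T.adj, hc, polar_neg_left, polar_smul_left] at h1
  rw [polar_smul_left, polar_comm (⇑QA) y x, smul_eq_mul, neg_mul, ← smul_eq_mul, ← h1, neg_neg]

/-- An element mapping a layer to a layer maps the neighbouring layers to layers. -/
theorem layer_image (hgood : T.NoLayer M) (hA : 3 ≤ finrank F A) (hB : 5 ≤ finrank F B)
    (hq : finrank F A = 3 → Nat.card F ≠ 3) {e e' : B} (he : QB e = 0) (he0 : e ≠ 0) (he'0 : e' ≠ 0)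
    {m : orth Q} (hm : m ∈ M) {Tm : A →ₗ[F] A}
    (hTm : ∀ x, (m : V ≃ₗ[F] V) (pu x e) = pu (Tm x) e') :
    ∃ κ : B →ₗ[F] B, ∀ η, polar QB e η = 0 → ∀ x, (m : V ≃ₗ[F] V) (pu x η) = pu (Tm x) (κ η) := by
  obtain ⟨h, hh⟩ := exists_hypPair (Q := QB) T.ndB he0 he
  have hinj : Function.Injective Tm := by
    refine (injective_iff_map_eq_zero Tm).2 fun x hx => T.pu_eq_zero_left ?_ he0
    apply (m : V ≃ₗ[F] V).injective
    rw [hTm, hx, map_zero, map_zero, LinearMap.zero_apply]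
  have hsur : Function.Surjective Tm := Finite.surjective_of_injective hinj
  have he' : QB e' = 0 := by
    obtain ⟨x, hx⟩ : ∃ x, QA x ≠ 0 := by
      obtain ⟨e₁, he₁0, he₁⟩ := H5.exists_singular (Q := QA) T.ndA hA
      obtain ⟨f₁, hf₁⟩ := exists_hypPair (Q := QA) T.ndA he₁0 he₁
      exact ⟨e₁ + f₁, by rw [QuadraticMap.map_add (⇑QA), he₁, hf₁.right, hf₁.pair]; simp⟩
    obtain ⟨y, rfl⟩ := hsur x
    have h1 := orth_map m (pu y e)
    rw [hTm, T.Q_pu, T.Q_pu, he, mul_zero, mul_zero] at h1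
    simpa [T.two, hx] using h1
  obtain ⟨h', hh'⟩ := exists_hypPair (Q := QB) T.ndB he'0 he'
  have hhe' : polar QB h' e' = 1 := by rw [polar_comm]; exact hh'.pair
  let mi : V →ₗ[F] V := (((m⁻¹ : orth Q) : V ≃ₗ[F] V) : V →ₗ[F] V)
  let Tt : A →ₗ[F] A := (T.C e).comp (mi.comp (pu.flip h'))
  have hTt : ∀ y x, polar QA (Tt y) x = polar QA y (Tm x) := by
    intro y x
    simp only [Tt, mi, LinearMap.comp_apply, LinearEquiv.coe_coe, LinearMap.flip_apply]
    rw [T.adj, ← orth_polar m, orth_apply_inv_apply, hTm, T.form, hhe', mul_one]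
  have hCm : ∀ w, T.C e (((m⁻¹ : orth Q) : V ≃ₗ[F] V) w) = Tt (T.C e' w) := fun w => T.extA fun x => by
    rw [T.adj, ← orth_polar m, orth_apply_inv_apply, hTm, hTt, T.adj]
  have hTt0 : Function.Injective Tt := (injective_iff_map_eq_zero Tt).2 fun y hy => T.extA fun z => by
    obtain ⟨x, rfl⟩ := hsur z
    rw [← hTt, hy, polar_zero_left, polar_zero_left]
  have hTts : Function.Surjective Tt := Finite.surjective_of_injective hTt0
  let L : B → A →ₗ[F] V := fun η => ((m : V ≃ₗ[F] V) : V →ₗ[F] V).comp ((pu.flip η).comp Tt)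
  have hL : ∀ η x, L η x = (m : V ≃ₗ[F] V) (pu (Tt x) η) := fun _ _ => rfl
  have hperp : ∀ η, polar QB e η = 0 → ∀ x, T.C e' (L η x) = 0 := fun η hη x => T.extA fun z => by
    obtain ⟨y, rfl⟩ := hsur z
    rw [T.adj, hL, ← hTm, orth_polar, T.form, polar_comm (⇑QB), hη, mul_zero, polar_zero_left]
  have hmemb : ∀ η, polar QB e η = 0 → T.Memb M e' (L η) := by
    intro η hη
    refine ⟨Tm.comp ((T.C η).comp mi), (-QB η) • Tm.comp Tt, m * T.kR (eich QB e η) * m⁻¹,
      mul_mem (mul_mem hm (H.right _ (eich_mem_omega T.ndB T.two e η))) (inv_mem hm),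
      ⟨fun v x => ?_, hperp η hη, fun v => ?_⟩⟩
    · simp only [mi, LinearMap.comp_apply, LinearEquiv.coe_coe]
      rw [polar_comm, ← hTt, polar_comm, T.adj, ← orth_polar m, orth_apply_inv_apply, hL]
    · rw [orth_mul_apply, orth_mul_apply, T.kR_eich_apply he hη, hCm]
      simp only [map_add, map_sub, map_smul, hTm, orth_apply_inv_apply, hL, mi, LinearMap.comp_apply,
        LinearEquiv.coe_coe, LinearMap.smul_apply, neg_smul, map_neg, LinearMap.neg_apply]
      abel
  obtain ⟨x₀, hx₀⟩ : ∃ x : A, x ≠ 0 := by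
    have : Nontrivial A := Module.nontrivial_of_finrank_pos (R := F) (by omega)
    exact exists_ne 0
  obtain ⟨y₀, hy₀⟩ := exists_polar_eq_one (Q := QA) T.ndA hx₀
  let κ : B →ₗ[F] B :=
    (T.C' y₀).comp (((m : V ≃ₗ[F] V) : V →ₗ[F] V).comp (pu (Tt x₀)))
  have hκ : ∀ η ζ, polar QB (κ η) ζ = polar QA (T.C ζ (L η x₀)) y₀ := fun η ζ => by
    rw [T.adj, hL]
    simp only [κ, LinearMap.comp_apply, LinearEquiv.coe_coe, T.adj']
  have hCζ : ∀ η, polar QB e η = 0 → ∀ ζ, polar QB e' ζ = 0 → ∀ x,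
      T.C ζ (L η x) = polar QB (κ η) ζ • x := by
    intro η hη ζ hζ x
    obtain ⟨c, hc⟩ := T.el_std H hgood hA hB hq he' he'0 (hmemb η hη) hζ
    rw [hκ, hc, hc, polar_smul_left, hy₀, smul_eq_mul, mul_one]
  have hκe : ∀ η, polar QB e η = 0 → polar QB e' (κ η) = 0 := fun η hη => by
    rw [polar_comm, hκ, hperp η hη, polar_zero_left]
  let R : B → A → A := fun η x => T.C h' (L η x - pu x (κ η))
  have hdec : ∀ η, polar QB e η = 0 → ∀ x, L η x = pu x (κ η) + pu (R η x) e' := by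
    intro η hη x
    refine (eq_add_of_sub_eq' (T.eq_pu_of_C hh'.pair fun ζ hζ => ?_))
    rw [map_sub, hCζ η hη ζ hζ, T.C_pu, sub_self]
  have hform : ∀ η, polar QB e η = 0 → ∀ η', polar QB e η' = 0 → ∀ x y,
      polar QA (Tt x) (Tt y) * polar QB η η' = polar QA x y * polar QB (κ η) (κ η') := by
    intro η hη η' hη' x y
    have h1 : polar Q (L η x) (L η' y) = polar QA (Tt x) (Tt y) * polar QB η η' := by
      rw [hL, hL, orth_polar, T.form]
    rw [← h1, hdec η hη x, hdec η' hη' y]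
    simp only [polar_add_left, polar_add_right, T.form, polar_self', he', mul_zero, hκe η' hη',
      polar_comm (⇑QB) (κ η) e', hκe η hη, add_zero]
  obtain ⟨η₀, hη₀, hQη₀⟩ := exists_anisotropic (hh.inf_perp T.ndB)
    (by have := hh.finrank_pperp T.ndB; omega)
  have heη₀ := (mem_pperp.1 hη₀).1
  set μ := QB (κ η₀) / QB η₀ with hμ
  have hsim : ∀ x y, polar QA (Tt x) (Tt y) = μ * polar QA x y := by
    intro x y
    have h1 := hform η₀ heη₀ η₀ heη₀ x y
    rw [polar_self', polar_self'] at h1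
    rw [hμ, div_mul_eq_mul_div, eq_div_iff hQη₀]
    refine mul_left_cancel₀ T.two ?_
    linear_combination h1
  have hμ0 : μ ≠ 0 := fun h0 => hx₀ (by
    refine hTt0 ((T.extA fun z => ?_).trans (map_zero Tt).symm)
    obtain ⟨y, rfl⟩ := hTts z
    rw [hsim, h0, zero_mul, polar_zero_left])
  have hκsim : ∀ η, polar QB e η = 0 → ∀ η', polar QB e η' = 0 →
      polar QB (κ η) (κ η') = μ * polar QB η η' := by
    intro η hη η' hη'
    have h1 := hform η hη η' hη' x₀ y₀
    rw [hsim, hy₀, mul_one, one_mul] at h1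
    exact h1.symm
  have hκQ : ∀ η, polar QB e η = 0 → QB (κ η) = μ * QB η := fun η hη => by
    have h1 := hκsim η hη η hη
    rw [polar_self', polar_self'] at h1
    exact mul_left_cancel₀ T.two (by linear_combination h1)
  have hTm' : ∀ x, Tm (Tt x) = μ • x := fun x => T.extA fun z => by
    rw [polar_comm, ← hTt, hsim, polar_comm, polar_smul_left, smul_eq_mul]
  -- the good vectors
  let W : Submodule F B :=
    { carrier := {η | ∃ c : F, ∀ x, T.C h' (L η x) = c • x}
      zero_mem' := ⟨0, fun x => by simp [hL]⟩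
      add_mem' := by
        rintro a b ⟨c, hc⟩ ⟨d, hd⟩
        refine ⟨c + d, fun x => ?_⟩
        have : L (a + b) x = L a x + L b x := by simp [hL]
        rw [this, map_add, hc, hd, add_smul]
      smul_mem' := by
        rintro s a ⟨c, hc⟩
        refine ⟨s * c, fun x => ?_⟩
        have : L (s • a) x = s • L a x := by simp [hL]
        rw [this, map_smul, hc, smul_smul] }
  have heW : e ∈ W := ⟨μ, fun x => by rw [hL, hTm, hTm', T.C_pu, hh'.pair, one_smul]⟩
  have hstep : ∀ ε a η, QB ε = 0 → polar QB e ε = 0 → polar QB e a = 0 → polar QB ε a = 0 →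
      polar QB e η = 0 → (eich QB ε a : B ≃ₗ[F] B) η - η ∈ W := by
    intro ε a η hε heε hea hεa hη
    set k := eich QB ε a with hk
    have hke : (k : B ≃ₗ[F] B) e = e := eich_apply_of_ortho hε hεa (by rw [polar_comm]; exact heε)
      (by rw [polar_comm]; exact hea)
    have hkη : ∀ η, polar QB e η = 0 → polar QB e ((k : B ≃ₗ[F] B) η) = 0 := fun η hη => by
      conv_lhs => arg 2; rw [← hke]
      rw [orth_polar, hη]
    have hε' : QB (κ ε) = 0 := by rw [hκQ ε heε, hε, mul_zero]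
    have hεa' : polar QB (κ ε) (μ⁻¹ • κ a) = 0 := by
      rw [polar_smul_right, hκsim ε heε a hea, hεa, mul_zero, smul_zero]
    set k' := eich QB (κ ε) (μ⁻¹ • κ a) with hk'
    have hk'κ : ∀ η, polar QB e η = 0 → (k' : B ≃ₗ[F] B) (κ η) = κ ((k : B ≃ₗ[F] B) η) := by
      intro η hη
      rw [hk', eich_apply hε' hεa', hk, eich_apply hε hεa, QuadraticMap.map_smul, polar_smul_left]
      simp only [map_sub, map_add, map_smul]
      rw [hκsim ε heε η hη,
        hκsim a hea η hη, hκQ a hea]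
      simp only [smul_eq_mul, smul_smul]
      match_scalars <;> field_simp
    have hk'e : (k' : B ≃ₗ[F] B) e' = e' := eich_apply_of_ortho hε' hεa'
      (by rw [polar_comm]; exact hκe ε heε)
      (by rw [polar_smul_left, polar_comm, hκe a hea, smul_zero])
    have hk'i : ∀ u, ((k'⁻¹ : orth QB) : B ≃ₗ[F] B) ((k' : B ≃ₗ[F] B) u) = u := orth_inv_apply_apply k'
    set m₃ := T.kR k'⁻¹ * (m * T.kR k * m⁻¹) with hm₃
    have hm₃M : m₃ ∈ M := mul_mem (H.right _ (inv_mem (eich_mem_omega T.ndB T.two _ _)))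
      (mul_mem (mul_mem hm (H.right _ (eich_mem_omega T.ndB T.two ε a))) (inv_mem hm))
    have hfix : ∀ x, (m₃ : V ≃ₗ[F] V) (pu x e') = pu x e' := by
      intro x
      obtain ⟨y, rfl⟩ := hsur x
      rw [hm₃, orth_mul_apply, orth_mul_apply, orth_mul_apply]
      conv_lhs => rw [← hTm, orth_inv_apply_apply, T.kR_pu, hke, hTm, T.kR_pu]
      conv_lhs => arg 2; rw [← hk'e, hk'i]
    have himg : ∀ η, polar QB e η = 0 → ∀ x, (m₃ : V ≃ₗ[F] V) (L η x) - L η x =
        pu (R ((k : B ≃ₗ[F] B) η) x - R η x) e' := by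
      intro η hη x
      have h1 : ((m * T.kR k * m⁻¹ : orth Q) : V ≃ₗ[F] V) (L η x) = L ((k : B ≃ₗ[F] B) η) x := by
        rw [orth_mul_apply, orth_mul_apply, hL, orth_inv_apply_apply, T.kR_pu, hL]
      have e3 : ((k'⁻¹ : orth QB) : B ≃ₗ[F] B) e' = e' := by
        conv_lhs => arg 2; rw [← hk'e]
        exact hk'i e'
      rw [hm₃, orth_mul_apply, h1, hdec _ (hkη η hη) x, map_add, T.kR_pu, T.kR_pu, ← hk'κ η hη, hk'i,
        e3, hdec η hη x]
      simp only [map_sub, LinearMap.sub_apply]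
      abel
    let U : Submodule F V :=
      { carrier := {v | (m₃ : V ≃ₗ[F] V) v - v = pu (T.C h' ((m₃ : V ≃ₗ[F] V) v - v)) e'}
        zero_mem' := by simp
        add_mem' := by
          intro a b ha hb
          simp only [Set.mem_setOf_eq] at ha hb ⊢
          rw [map_add, add_sub_add_comm, map_add, map_add, LinearMap.add_apply, ← ha, ← hb]
        smul_mem' := by
          intro s a ha
          simp only [Set.mem_setOf_eq] at ha ⊢
          rw [map_smul, ← smul_sub, map_smul, map_smul, LinearMap.smul_apply, ← ha] }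
    have hU : ∀ η, polar QB e η = 0 → ∀ y, (m : V ≃ₗ[F] V) (pu y η) ∈ U := by
      intro η hη y
      obtain ⟨x, rfl⟩ := hTts y
      rw [← hL]
      show (m₃ : V ≃ₗ[F] V) (L η x) - L η x = _
      rw [himg η hη x, T.C_pu, hh'.pair, one_smul]
    have hζ : ∀ ζ, polar QB e' ζ = 0 → ∀ x, (m₃ : V ≃ₗ[F] V) (pu x ζ) - pu x ζ =
        pu (T.C h' ((m₃ : V ≃ₗ[F] V) (pu x ζ) - pu x ζ)) e' := by
      intro ζ hζ x
      obtain ⟨w, hw⟩ := (m : V ≃ₗ[F] V).surjective (pu x ζ)
      have hCw : T.C e w = 0 := by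
        rw [← orth_inv_apply_apply m w, hw, hCm, T.C_pu, polar_comm, hζ, zero_smul, map_zero]
      let P : V →ₗ[F] V := LinearMap.id - (pu.flip h).comp (T.C e)
      have hPw : P w = w := by simp [P, hCw]
      have hP : ∀ v, (m : V ≃ₗ[F] V) (P v) ∈ U := by
        intro v
        have : (U.comap (((m : V ≃ₗ[F] V) : V →ₗ[F] V).comp P)) = ⊤ := by
          rw [eq_top_iff, ← T.span_top, Submodule.span_le]
          rintro _ ⟨y, u, rfl⟩
          have hu : polar QB e (u - polar QB e u • h) = 0 := by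
            rw [polar_sub_right, polar_smul_right, hh.pair, smul_eq_mul, mul_one, sub_self]
          have := hU _ hu y
          simpa [P, T.C_pu, polar_comm (⇑QB) u e] using this
        exact this.ge (Submodule.mem_top (x := v))
      have := hP w
      rwa [hPw, hw] at this
    obtain ⟨c, hc⟩ := T.unip_scalar H hgood hA hB hq hh' hm₃M hfix hζ (hκe η hη)
    refine ⟨c + polar QB (κ ((k : B ≃ₗ[F] B) η) - κ η) h', fun x => ?_⟩
    have h3 := himg η hη x
    rw [hdec η hη x, map_add, hfix, add_sub_add_right_eq_sub] at h3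
    have h4 := hc x
    rw [h3, T.C_pu, hh'.pair, one_smul] at h4
    have h5 : L ((k : B ≃ₗ[F] B) η - η) x = L ((k : B ≃ₗ[F] B) η) x - L η x := by simp [hL]
    have h6 : ∀ η, T.C h' (L η x) = R η x + polar QB (κ η) h' • x := fun η => by
      simp only [R, map_sub, T.C_pu, sub_add_cancel]
    rw [h5, map_sub, h6, h6, add_sub_add_comm, h4, ← sub_smul, ← polar_sub_left, ← add_smul]
  have hle : pperp QB e h ≤ W := by
    refine (le_span_singular (hh.inf_perp T.ndB) (by have := hh.finrank_pperp T.ndB; omega)).trans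
      (Submodule.span_le.2 ?_)
    rintro ε ⟨hε, hε0, hεs⟩
    obtain ⟨ε₂, a, -, ha, -, hεa, -, hQa⟩ := exists_triple (QB := QB) T.two (hh.inf_perp T.ndB)
      (by have := hh.finrank_pperp T.ndB; omega) hε hε0 hεs
    have h1 := hstep ε a a hεs (mem_pperp.1 hε).1 (mem_pperp.1 ha).1 hεa (mem_pperp.1 ha).1
    rw [eich_apply hεs hεa, hεa, polar_self'] at h1
    simp only [zero_smul, mul_zero, add_zero, sub_zero, sub_sub_cancel_left, neg_mem_iff] at h1
    exact (Submodule.smul_mem_iff W (mul_ne_zero T.two hQa)).1 h1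
  refine ⟨μ⁻¹ • κ, fun η hη x => ?_⟩
  have hηW : η ∈ W := by
    have := W.add_mem (hle (hh.decomp η)) (W.smul_mem (polar QB h η) heW)
    rwa [hη, zero_smul, sub_zero, sub_add_cancel] at this
  obtain ⟨c, hc⟩ := hηW
  obtain ⟨y, rfl⟩ := hTts x
  have hR : R η y = (c - polar QB (κ η) h') • y := by
    simp only [R, map_sub, hc, T.C_pu, sub_smul]
  have hc0 : c = polar QB (κ η) h' := by
    have h1 := hκ η h'
    rw [hc x₀, polar_smul_left, hy₀, smul_eq_mul, mul_one] at h1
    exact h1.symm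
  rw [hc0, sub_self, zero_smul] at hR
  rw [← hL, hdec η hη y, hR, map_zero, LinearMap.zero_apply, add_zero, hTm', LinearMap.smul_apply,
    map_smul, map_smul, LinearMap.smul_apply, smul_smul, inv_mul_cancel₀ hμ0, one_smul]

/-- An element mapping a layer to a layer is a pure tensor. -/
theorem pure_of_layer (hgood : T.NoLayer M) (hA : 3 ≤ finrank F A) (hB : 5 ≤ finrank F B)
    (hq : finrank F A = 3 → Nat.card F ≠ 3) {e e' : B} (he : QB e = 0) (he0 : e ≠ 0) (he'0 : e' ≠ 0)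
    {m : orth Q} (hm : m ∈ M) {Tm : A →ₗ[F] A}
    (hTm : ∀ x, (m : V ≃ₗ[F] V) (pu x e) = pu (Tm x) e') : IsPureT pu m := by
  obtain ⟨h, hh⟩ := exists_hypPair (Q := QB) T.ndB he0 he
  obtain ⟨κ, hκ⟩ := T.layer_image H hgood hA hB hq he he0 he'0 hm hTm
  obtain ⟨ε, hε, η, -, hε0, hεs, -, -⟩ := exists_eta_in (Q := QB) (hh.inf_perp T.ndB)
    (by have := hh.finrank_pperp T.ndB; omega)
  obtain ⟨heε, hhε⟩ := mem_pperp.1 hε
  have hκε : κ ε ≠ 0 := by
    intro h0
    obtain ⟨x₀, hx₀⟩ : ∃ x : A, x ≠ 0 := by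
      have : Nontrivial A := Module.nontrivial_of_finrank_pos (R := F) (by omega)
      exact exists_ne 0
    refine hε0 (T.pu_eq_zero_right ?_ hx₀)
    apply (m : V ≃ₗ[F] V).injective
    rw [hκ ε heε, h0, map_zero, map_zero]
  obtain ⟨κ₂, hκ₂⟩ := T.layer_image H hgood hA hB hq hεs hε0 hκε hm (hκ ε heε)
  refine ⟨Tm, κ.comp (LinearMap.id - (polarBilin QB e).smulRight h) +
    (polarBilin QB e).smulRight (κ₂ h), fun x u => ?_⟩
  have hu : polar QB e (u - polar QB e u • h) = 0 := by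
    rw [polar_sub_right, polar_smul_right, hh.pair, smul_eq_mul, mul_one, sub_self]
  conv_lhs => rw [← sub_add_cancel u (polar QB e u • h), map_add, map_add, hκ _ hu, map_smul,
    map_smul, hκ₂ h (by rw [polar_comm]; exact hhε)]
  simp

end TO

end Cfsg.Agent.H19.OrthTensor
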