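import Cfsg.Agent.H5.RootClosure
import Cfsg.Agent.H5.OmegaCriterion

/-!
A quadratic form presented as the tensor product of two quadratic forms: contractions, the two
commuting copies of the orthogonal groups of the factors and their root elements.
-/

set_option autoImplicit false
set_option linter.unusedSectionVars false

namespace Cfsg.Agent.H19.OrthTensor

open QuadraticMap hiding sq
open Cfsg.Agent.H5 Module

variable {F V A B : Type*} [Field F] [AddCommGroup V] [Module F V] [AddCommGroup A] [Module F A]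
  [AddCommGroup B] [Module F B]

/-- A presentation of the polar form of `Q` as the product of those of `QA` and `QB`. -/
structure TO (Q : QuadraticForm F V) (QA : QuadraticForm F A) (QB : QuadraticForm F B)
    (pu : A →ₗ[F] B →ₗ[F] V) where
  /-- contraction along a vector of the second factor -/
  C : B →ₗ[F] V →ₗ[F] A
  /-- contraction along a vector of the first factor -/
  C' : A →ₗ[F] V →ₗ[F] B
  /-- the copy of the orthogonal group of the second factor -/
  kR : orth QB →* orth Q
  /-- the copy of the orthogonal group of the first factor -/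
  kL : orth QA →* orth Q
  two : (2 : F) ≠ 0
  ndV : (polarBilin Q).Nondegenerate
  ndA : (polarBilin QA).Nondegenerate
  ndB : (polarBilin QB).Nondegenerate
  form : ∀ x u y v, polar Q (pu x u) (pu y v) = polar QA x y * polar QB u v
  adj : ∀ u v x, polar QA (C u v) x = polar Q v (pu x u)
  adj' : ∀ x v u, polar QB (C' x v) u = polar Q v (pu x u)
  span : ∀ v, (∀ x u, polar Q v (pu x u) = 0) → v = 0
  kR_pu : ∀ (k : orth QB) x u, (kR k : V ≃ₗ[F] V) (pu x u) = pu x ((k : B ≃ₗ[F] B) u)
  kL_pu : ∀ (g : orth QA) x u, (kL g : V ≃ₗ[F] V) (pu x u) = pu ((g : A ≃ₗ[F] A) x) u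

namespace TO

variable {Q : QuadraticForm F V} {QA : QuadraticForm F A} {QB : QuadraticForm F B}
  {pu : A →ₗ[F] B →ₗ[F] V}

/-- The roles of the factors exchanged. -/
def swap (T : TO Q QA QB pu) : TO Q QB QA pu.flip where
  C := T.C'
  C' := T.C
  kR := T.kL
  kL := T.kR
  two := T.two
  ndV := T.ndV
  ndA := T.ndB
  ndB := T.ndA
  form x u y v := by rw [LinearMap.flip_apply, LinearMap.flip_apply, T.form, mul_comm]
  adj := T.adj'
  adj' := T.adj
  span v h := T.span v fun x u => h u x
  kR_pu g x u := T.kL_pu g u x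
  kL_pu k x u := T.kR_pu k u x

variable (T : TO Q QA QB pu)
include T

theorem Q_pu (x : A) (u : B) : Q (pu x u) = 2 * (QA x * QB u) := by
  refine mul_left_cancel₀ T.two ?_
  rw [← polar_self', T.form, polar_self', polar_self']
  ring

theorem extA {x y : A} (h : ∀ z, polar QA x z = polar QA y z) : x = y := by
  rw [← sub_eq_zero]
  refine T.ndA.1 _ fun z => ?_
  rw [polarBilin_apply_apply, polar_sub_left, h, sub_self]

theorem extB {x y : B} (h : ∀ z, polar QB x z = polar QB y z) : x = y := T.swap.extA h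

theorem C_pu (u : B) (x : A) (w : B) : T.C u (pu x w) = polar QB w u • x :=
  T.extA fun z => by rw [T.adj, T.form, polar_smul_left, smul_eq_mul]; ring

theorem C'_pu (y x : A) (w : B) : T.C' y (pu x w) = polar QA x y • w := T.swap.C_pu y w x

/-- The pure tensors span. -/
theorem span_top [FiniteDimensional F V] :
    Submodule.span F {v : V | ∃ x u, v = pu x u} = ⊤ := by
  have h : perp Q (Submodule.span F {v : V | ∃ x u, v = pu x u}) = ⊥ := by
    rw [eq_bot_iff]
    intro v hv
    rw [Submodule.mem_bot]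
    exact T.span v fun x u => by
      rw [polar_comm]; exact mem_perp.1 hv _ (Submodule.subset_span ⟨x, u, rfl⟩)
  refine Submodule.eq_top_of_finrank_eq ?_
  have := finrank_perp_add T.ndV (Submodule.span F {v : V | ∃ x u, v = pu x u})
  rw [h, finrank_bot] at this
  omega

variable [FiniteDimensional F V]

/-- Linear maps agreeing on the pure tensors are equal. -/
theorem ext_pu {W : Type*} [AddCommGroup W] [Module F W] {f g : V →ₗ[F] W}
    (h : ∀ x u, f (pu x u) = g (pu x u)) : f = g :=
  LinearMap.ext_on T.span_top (by rintro _ ⟨x, u, rfl⟩; exact h x u)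

/-- Isometries agreeing on the pure tensors are equal. -/
theorem orth_ext_pu {g g' : orth Q}
    (h : ∀ x u, (g : V ≃ₗ[F] V) (pu x u) = (g' : V ≃ₗ[F] V) (pu x u)) : g = g' :=
  orth_ext fun v => congrArg (fun f : V →ₗ[F] V => f v)
    (T.ext_pu (f := ((g : V ≃ₗ[F] V) : V →ₗ[F] V)) (g := ((g' : V ≃ₗ[F] V) : V →ₗ[F] V)) h)

theorem eq_zero_of_C {v : V} (h : ∀ u, T.C u v = 0) : v = 0 :=
  T.span v fun x u => by rw [← T.adj, h, polar_zero_left]

theorem kR_comm (k : orth QB) (g : orth QA) : Commute (T.kR k) (T.kL g) :=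
  T.orth_ext_pu fun x u => by
    simp only [orth_mul_apply, T.kR_pu, T.kL_pu]

theorem C_kR (k : orth QB) (u : B) (v : V) :
    T.C ((k : B ≃ₗ[F] B) u) ((T.kR k : V ≃ₗ[F] V) v) = T.C u v :=
  T.extA fun z => by rw [T.adj, T.adj, ← T.kR_pu k, orth_polar]

theorem C_kL (g : orth QA) (u : B) (v : V) :
    T.C u ((T.kL g : V ≃ₗ[F] V) v) = (g : A ≃ₗ[F] A) (T.C u v) :=
  T.extA fun z => by
    obtain ⟨z, rfl⟩ := (g : A ≃ₗ[F] A).surjective z
    rw [T.adj, orth_polar g, T.adj, ← T.kL_pu g, orth_polar]

theorem pu_eq_zero_left {x : A} {u : B} (h : pu x u = 0) (hu : u ≠ 0) : x = 0 := by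
  obtain ⟨w, hw⟩ := exists_polar_eq_one (Q := QB) T.ndB hu
  have := congrArg (T.C w) h
  rwa [T.C_pu, hw, one_smul, map_zero] at this

theorem pu_eq_zero_right {x : A} {u : B} (h : pu x u = 0) (hx : x ≠ 0) : u = 0 :=
  T.swap.pu_eq_zero_left h hx

/-- A vector whose contractions along the orthogonal of `p` vanish is a multiple of `p`. -/
theorem eq_pu_of_C [FiniteDimensional F B] {p h : B} (hph : polar QB p h = 1) {v : V}
    (hv : ∀ e, polar QB p e = 0 → T.C e v = 0) : v = pu (T.C h v) p := by
  rw [← sub_eq_zero]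
  refine T.eq_zero_of_C fun u => ?_
  have h1 := hv (u - polar QB p u • h) (by
    rw [polar_sub_right, polar_smul_right, hph, smul_eq_mul, mul_one, sub_self])
  rw [map_sub, map_smul, LinearMap.sub_apply, LinearMap.smul_apply, sub_eq_zero] at h1
  rw [map_sub, T.C_pu, h1, polar_comm, sub_self]

/-- The root elements of the second factor. -/
theorem kR_eich_apply {e η : B} (he : QB e = 0) (hη : polar QB e η = 0) (v : V) :
    (T.kR (eich QB e η) : V ≃ₗ[F] V) v =
      v + pu (T.C e v) η - pu (T.C η v) e - QB η • pu (T.C e v) e := by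
  have key := T.ext_pu (f := ((T.kR (eich QB e η) : V ≃ₗ[F] V) : V →ₗ[F] V))
    (g := LinearMap.id + (pu.flip η).comp (T.C e) - (pu.flip e).comp (T.C η)
      - QB η • (pu.flip e).comp (T.C e)) fun x u => by
    simp only [LinearEquiv.coe_coe, T.kR_pu, eich_apply he hη, LinearMap.sub_apply,
      LinearMap.add_apply, LinearMap.smul_apply, LinearMap.id_apply, LinearMap.comp_apply,
      LinearMap.flip_apply, T.C_pu, map_smul, map_add, map_sub, smul_smul,
      polar_comm (⇑QB) u e, polar_comm (⇑QB) u η]
  simpa using LinearMap.congr_fun key v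

theorem kR_eich_fixed {e η : B} (he : QB e = 0) (hη : polar QB e η = 0) {v : V}
    (h1 : T.C e v = 0) (h2 : T.C η v = 0) : (T.kR (eich QB e η) : V ≃ₗ[F] V) v = v := by
  rw [T.kR_eich_apply he hη, h1, h2]; simp

theorem kR_mem [Finite F] {k : orth QB} (hk : k ∈ commutator (orth QB)) :
    T.kR k ∈ commutator (orth Q) := by
  have h : (commutator (orth QB)).map T.kR ≤ commutator (orth Q) := by
    rw [commutator_def, Subgroup.map_commutator, commutator_def]
    exact Subgroup.commutator_mono le_top le_top
  exact h ⟨k, hk, rfl⟩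

theorem kL_mem [Finite F] {g : orth QA} (hg : g ∈ commutator (orth QA)) :
    T.kL g ∈ commutator (orth Q) := T.swap.kR_mem hg

end TO

end Cfsg.Agent.H19.OrthTensor
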